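import Cfsg.Agent.H317.KP.Elem2
import Cfsg.Agent.H742.SigmaRoot
import Cfsg.Agent.H742.HasOppOf

/-!
# Components of the family of quadratic root subgroups and a coprime operator group
-/

set_option autoImplicit false

namespace Cfsg.Agent.H317.KP

open Cfsg Cfsg.Agent.H740 Cfsg.Agent.H742 Cfsg.Agent.H731

/-! ### connected families: transitivity -/

section fam

variable {Γ : Type*} [Group Γ]

theorem fam_trans {T : Set (Subgroup Γ)} (h : Fam T) (hF : ∀ A ∈ T, ∃ B ∈ T, IsRankOnePair A B) {E : Subgroup Γ}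
    (hE : E ∈ T) {A B : Subgroup Γ} (hA : A ∈ componentOf (FAdj T) T E) (hB : B ∈ componentOf (FAdj T) T E) :
    ∃ g ∈ ⨆ C ∈ componentOf (FAdj T) T E, C, conjBy A g = B := by
  have hcl := (h.component hF (A := E)).rootClass (component_partner hF) ⟨E, self_mem_componentOf hE⟩
    component_connected
  obtain ⟨g, hg⟩ := hcl.2.2 _ ⟨A, hA, rfl⟩ _ ⟨B, hB, rfl⟩
  refine ⟨g, g.2, ?_⟩
  simp only at hg
  rw [conjBy_subgroupOf] at hg
  have hle : conjBy A (g : Γ) ≤ ⨆ C ∈ componentOf (FAdj T) T E, C :=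
    le_gen ((h.component hF (A := E)).conj A hA g g.2)
  exact ((subgroupOf_inj_iff (le_gen hB) hle).1 hg).symm

theorem fAdj_conjBy {T : Set (Subgroup Γ)} {b : Γ} (hb : ∀ A ∈ T, conjBy A b ∈ T) {A B : Subgroup Γ}
    (h : FAdj T A B) : FAdj T (conjBy A b) (conjBy B b) :=
  ⟨hb _ h.1, hb _ h.2.1, IsRankOnePair_conj h.2.2 b⟩

theorem comp_conjBy {T : Set (Subgroup Γ)} {b : Γ} (hb : ∀ A ∈ T, conjBy A b ∈ T) {A B : Subgroup Γ}
    (h : B ∈ componentOf (FAdj T) T A) : conjBy B b ∈ componentOf (FAdj T) T (conjBy A b) := by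
  obtain ⟨h1, h2⟩ := h
  refine ⟨hb _ h1, ?_⟩
  clear h1
  induction h2 with
  | refl => exact Relation.ReflTransGen.refl
  | tail _ h3 ih => exact ih.tail (fAdj_conjBy hb h3)

theorem comp_conjBy_iff {T : Set (Subgroup Γ)} {b : Γ} (hb : ∀ A ∈ T, conjBy A b ∈ T)
    (hb' : ∀ A ∈ T, conjBy A b⁻¹ ∈ T) {A B : Subgroup Γ} :
    conjBy B b ∈ componentOf (FAdj T) T (conjBy A b) ↔ B ∈ componentOf (FAdj T) T A := by
  constructor
  · intro h
    have := comp_conjBy hb' h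
    rwa [conjBy_conjBy, conjBy_conjBy, inv_mul_cancel, conjBy_one, conjBy_one] at this
  · exact comp_conjBy hb

/-- the stabiliser of a set of subgroups in `A0` -/
def stabSet (A0 : Subgroup Γ) (C : Set (Subgroup Γ)) : Subgroup Γ where
  carrier := {a | a ∈ A0 ∧ ∀ B, conjBy B a ∈ C ↔ B ∈ C}
  one_mem' := ⟨A0.one_mem, fun B => by rw [conjBy_one]⟩
  mul_mem' := by
    rintro a b ⟨ha, ha'⟩ ⟨hb, hb'⟩
    exact ⟨A0.mul_mem ha hb, fun B => by rw [← conjBy_conjBy, ha', hb']⟩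
  inv_mem' := by
    rintro a ⟨ha, ha'⟩
    exact ⟨A0.inv_mem ha, fun B => by rw [← ha', conjBy_conjBy, mul_inv_cancel, conjBy_one]⟩

theorem mem_stabSet {A0 : Subgroup Γ} {C : Set (Subgroup Γ)} {a : Γ} :
    a ∈ stabSet A0 C ↔ a ∈ A0 ∧ ∀ B, conjBy B a ∈ C ↔ B ∈ C := Iff.rfl

theorem comm_of_not_stab {T : Set (Subgroup Γ)} (h : Fam T) (hF : ∀ A ∈ T, ∃ B ∈ T, IsRankOnePair A B)
    {A0 : Subgroup Γ} {a : Γ} (ha : a ∈ A0) (hb : ∀ A ∈ T, conjBy A a ∈ T)
    (hb' : ∀ A ∈ T, conjBy A a⁻¹ ∈ T) {E : Subgroup Γ}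
    (hn : a ∉ stabSet A0 (componentOf (FAdj T) T E)) :
    ∀ u ∈ ⨆ C ∈ componentOf (FAdj T) T E, C, ∀ v ∈ ⨆ C ∈ componentOf (FAdj T) T E, C,
      u * (a * v * a⁻¹) = (a * v * a⁻¹) * u := by
  have hne : componentOf (FAdj T) T E ≠ componentOf (FAdj T) T (conjBy E a) := by
    intro he
    apply hn
    refine ⟨ha, fun B => ?_⟩
    conv_lhs => rw [he]
    exact comp_conjBy_iff hb hb'
  have h1 := commutator_iSup_eq_bot (T := componentOf (FAdj T) T E)
    (U := componentOf (FAdj T) T (conjBy E a)) (fun C hC D hD => h.commute_of_not_reach hF hne hC hD)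
  rw [commutator_eq_bot_iff_forall] at h1
  intro u hu v hv
  refine h1 u hu _ ?_
  have h2 : a * v * a⁻¹ ∈ conjBy (⨆ C ∈ componentOf (FAdj T) T E, C) a := conj_mem_conjBy hv a
  refine (?_ : conjBy (⨆ C ∈ componentOf (FAdj T) T E, C) a ≤ _) h2
  rw [conjBy_iSup]
  refine iSup_le fun C => ?_
  rw [conjBy_iSup]
  refine iSup_le fun hC => ?_
  exact le_gen (comp_conjBy hb hC)

end fam

variable {p : ℕ} [Fact p.Prime] {M : Type*} [AddCommGroup M] [Module (ZMod p) M]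
variable {G : Subgroup (LinearMap.GeneralLinearGroup (ZMod p) M)} [Finite M] [FiniteDimensional (ZMod p) M]

theorem coe_conj_sub (b σ : LinearMap.GeneralLinearGroup (ZMod p) M) :
    ((b * σ * b⁻¹ : LinearMap.GeneralLinearGroup (ZMod p) M) : M →ₗ[ZMod p] M) - 1
      = conjL b ((σ : M →ₗ[ZMod p] M) - 1) := by
  rw [coe_conj_sub_one, conjL_apply]

theorem conj_mem_min {b σ : LinearMap.GeneralLinearGroup (ZMod p) M} (hb : Nz G b)
    (hσ : σ ∈ minimalQuadraticElements G) : b * σ * b⁻¹ ∈ minimalQuadraticElements G := by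
  rw [H740.mem_minimalQuadraticElements_iff] at hσ ⊢
  rw [coe_conj_sub]
  exact isMin_conjL hb hσ

theorem conjBy_E {b σ : LinearMap.GeneralLinearGroup (ZMod p) M} (hb : Nz G b) (hb' : Nz G b⁻¹)
    (hσ : σ ∈ minimalQuadraticElements G) :
    conjBy (sameActionSubgroup G σ) b = sameActionSubgroup G (b * σ * b⁻¹) := by
  ext x
  rw [mem_conjBy, mem_E_iff hσ, mem_E_iff (conj_mem_min hb hσ), coe_conj_sub, ← conjL_image_cl hb hb']
  have e : ((b⁻¹ * x * b : LinearMap.GeneralLinearGroup (ZMod p) M) : M →ₗ[ZMod p] M) - 1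
      = conjL b⁻¹ ((x : M →ₗ[ZMod p] M) - 1) := by
    have := coe_conj_sub b⁻¹ x
    rwa [inv_inv] at this
  rw [e]
  constructor
  · intro h
    exact ⟨_, h, by simp only; rw [conjL_conjL, mul_inv_cancel, conjL_id]⟩
  · rintro ⟨y, hy, h⟩
    simp only at h
    rw [← h, conjL_conjL, inv_mul_cancel, conjL_id]
    exact hy

theorem conjBy_mem_T {b : LinearMap.GeneralLinearGroup (ZMod p) M} (hb : Nz G b) (hb' : Nz G b⁻¹)
    {A : Subgroup (LinearMap.GeneralLinearGroup (ZMod p) M)} (hA : A ∈ quadraticRootSubgroups G) :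
    conjBy A b ∈ quadraticRootSubgroups G := by
  obtain ⟨σ, hσ, rfl⟩ := hA
  exact ⟨_, conj_mem_min hb hσ, conjBy_E hb hb' hσ⟩

/-- conjugating the embedded `SL₂` -/
theorem conj_slHom {x y : M →ₗ[ZMod p] M} (h : H742.Inv x y) {b : LinearMap.GeneralLinearGroup (ZMod p) M}
    (hx : conjL b x = x) (hy : conjL b y = y) (g : Matrix.SpecialLinearGroup (Fin 2) (ZMod p)) :
    b * h.slHom g * b⁻¹ = h.slHom g := by
  apply Units.ext
  rw [← conjL_coe, h.coe_slHom, slMap]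
  simp only [map_add, map_sub, map_smul, conjL_mul', conjL_one', hx, hy]

/-- the embedded `SL₂` in a subgroup -/
theorem slHom_mem_of {K : Subgroup (LinearMap.GeneralLinearGroup (ZMod p) M)} {s t : M →ₗ[ZMod p] M}
    (h : H742.Inv s t) (hs : ∀ c : ZMod p, ∀ x : LinearMap.GeneralLinearGroup (ZMod p) M,
      (x : M →ₗ[ZMod p] M) = 1 + c • s → x ∈ K)
    (ht : ∀ c : ZMod p, ∀ x : LinearMap.GeneralLinearGroup (ZMod p) M,
      (x : M →ₗ[ZMod p] M) = 1 + c • t → x ∈ K)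
    (g : Matrix.SpecialLinearGroup (Fin 2) (ZMod p)) : h.slHom g ∈ K := by
  have hU : (upperUnipotentSL2 (ZMod p)).map h.slHom ≤ K := by
    rintro _ ⟨u, hu, rfl⟩
    obtain ⟨c, rfl⟩ := mem_upper_iff.1 hu
    exact hs c _ (h.slHom_up c)
  have hL : (lowerUnipotentSL2 (ZMod p)).map h.slHom ≤ K := by
    rintro _ ⟨u, hu, rfl⟩
    obtain ⟨c, rfl⟩ := mem_lower_iff.1 hu
    exact ht c _ (h.slHom_lo c)
  have h3 : h.slHom.range ≤ K := by
    rw [MonoidHom.range_eq_map, ← lower_sup_upper, Subgroup.map_sup]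
    exact sup_le hL hU
  exact h3 ⟨g, rfl⟩

/-- a group containing an embedded `SL₂` has even order -/
theorem two_dvd_card (hp2 : p ≠ 2) {s t : M →ₗ[ZMod p] M} (h : H742.Inv s t) (hs0 : s ≠ 0) (hs : QIn G s)
    (ht : QIn G t) : 2 ∣ Nat.card ↥G := by
  let g : Matrix.SpecialLinearGroup (Fin 2) (ZMod p) := -1
  have hg2 : g ^ 2 = 1 := by simp [g]
  have hg1 : g ≠ 1 := by
    intro h1
    have h2 := congrArg (fun x : Matrix.SpecialLinearGroup (Fin 2) (ZMod p) => (x : Matrix (Fin 2) (Fin 2) (ZMod p)) 0 0) h1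
    simp [g] at h2
    have h3 : (2 : ZMod p) = 0 := by linear_combination -h2
    have h4 : ((2 : ℕ) : ZMod p) = 0 := by exact_mod_cast h3
    rw [ZMod.natCast_eq_zero_iff] at h4
    exact hp2 ((Nat.prime_dvd_prime_iff_eq (Fact.out : p.Prime) Nat.prime_two).1 h4)
  let z : ↥G := ⟨h.slHom g, slHom_mem h hs0 hs ht g⟩
  have hz2 : z ^ 2 = 1 := by
    apply Subtype.ext
    show (h.slHom g) ^ 2 = 1
    rw [← map_pow, hg2, map_one]
  have hz1 : z ≠ 1 := by
    intro h1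
    apply hg1
    have h2 : h.slHom g = 1 := congrArg Subtype.val h1
    have h3 := h.slHom_ker hs0
    rw [Subgroup.eq_bot_iff_forall] at h3
    exact h3 g h2
  rw [← orderOf_eq_prime hz2 hz1]
  exact orderOf_dvd_natCard z

/-- **The key configuration**: a subgroup `A1` of `A0` centralising an embedded `SL₂(p)`, which commutes with its conjugates
under `A0 ∖ A1`. -/
theorem exists_pair (hp5 : 5 ≤ p) (hC : Core G) (hO : HasOpp G)
    (A0 : Subgroup (LinearMap.GeneralLinearGroup (ZMod p) M)) (hA0 : ∀ a ∈ A0, Nz G a)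
    (hcop : (Nat.card ↥A0).Coprime (Nat.card ↥G)) {σ₀ : LinearMap.GeneralLinearGroup (ZMod p) M}
    (hσ₀ : σ₀ ∈ minimalQuadraticElements G) :
    ∃ A1 : Subgroup (LinearMap.GeneralLinearGroup (ZMod p) M), ∃ x y : M →ₗ[ZMod p] M, ∃ h : H742.Inv x y,
      x ≠ 0 ∧ (∀ g, h.slHom g ∈ G) ∧ (∀ a ∈ A1, ∀ g, a * h.slHom g * a⁻¹ = h.slHom g) ∧
      ∀ a ∈ A0, a ∉ A1 → ∀ g g', h.slHom g * (a * h.slHom g' * a⁻¹) = (a * h.slHom g' * a⁻¹) * h.slHom g := by
  have hfam := sigma_fam hC hO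
  have hF := sigma_partner hC hO
  set T := quadraticRootSubgroups G with hT
  have hA0' : ∀ a ∈ A0, Nz G a⁻¹ := fun a ha => hA0 _ (A0.inv_mem ha)
  have hTa : ∀ a ∈ A0, ∀ A ∈ T, conjBy A a ∈ T := fun a ha A hA => conjBy_mem_T (hA0 a ha) (hA0' a ha) hA
  have hTa' : ∀ a ∈ A0, ∀ A ∈ T, conjBy A a⁻¹ ∈ T := fun a ha A hA => hTa _ (A0.inv_mem ha) A hA
  let E0 := sameActionSubgroup G σ₀
  have hE0 : E0 ∈ T := ⟨σ₀, hσ₀, rfl⟩
  set C0 := componentOf (FAdj T) T E0 with hC0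
  set K := ⨆ C ∈ C0, C with hK
  have hKG : K ≤ G := (gen_componentOf_le (T := T) (A := E0)).trans gen_sigma_le
  set A1 := stabSet A0 C0 with hA1
  have hA1A0 : A1 ≤ A0 := fun a ha => ha.1
  have hKconj : ∀ b ∈ A1, ∀ u ∈ K, b * u * b⁻¹ ∈ K := by
    intro b hb u hu
    have h2 : b * u * b⁻¹ ∈ conjBy K b := conj_mem_conjBy hu b
    refine (?_ : conjBy K b ≤ K) h2
    rw [hK, conjBy_iSup]
    refine iSup_le fun C => ?_
    rw [conjBy_iSup]
    refine iSup_le fun hC => ?_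
    exact le_gen ((hb.2 C).2 hC)
  have hcop1 : (Nat.card ↥A1).Coprime (Nat.card ↥G) := hcop.coprime_dvd_left (Subgroup.card_dvd_of_le hA1A0)
  have hσm₀ := H740.mem_minimalQuadraticElements_iff.1 hσ₀
  have opp : ∀ s : M →ₗ[ZMod p] M, IsMin G s → ∃ t, IsMin G t ∧ H742.Inv s t := by
    intro s hs
    obtain ⟨g, hg, hn⟩ := hO s hs
    obtain ⟨t, ht, -, hi⟩ := hC.inv hs (isMin_conjL (nz_of_mem hg) hs) hn
    exact ⟨t, ht, hi⟩
  have hodd : Odd (Nat.card ↥A1) := by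
    obtain ⟨t, ht, hi⟩ := opp _ hσm₀
    have h2 := two_dvd_card (by omega) hi hσm₀.ne_zero hσm₀.1 ht.1
    rw [← Nat.not_even_iff_odd, even_iff_two_dvd]
    intro h3
    have := Nat.dvd_gcd h3 h2
    rw [hcop1] at this
    norm_num at this
  have hsol : Group.IsSolvable ↥A1 := Cfsg.Agent.S0205.result hodd
  obtain ⟨E1, hE1, hfix⟩ := glaub (Γ := LinearMap.GeneralLinearGroup (ZMod p) M)
    (fun g A => conjBy A g) (fun A => conjBy_one A) (fun g h A => (conjBy_conjBy A g h).symm)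
    K A1 hKconj (hcop1.coprime_dvd_right (Subgroup.card_dvd_of_le hKG)) (Or.inl hsol) C0
    ⟨E0, self_mem_componentOf hE0⟩
    (fun b hb A hA => (hb.2 A).2 hA)
    (fun u hu A hA => (hfam.component hF (A := E0)).conj A hA u hu)
    (fun A hA B hB => fam_trans hfam hF hE0 hA hB)
  obtain ⟨σ, hσ, rfl⟩ : ∃ σ ∈ minimalQuadraticElements G, E1 = sameActionSubgroup G σ := hE1.1
  have hs := H740.mem_minimalQuadraticElements_iff.1 hσ
  set s := (σ : M →ₗ[ZMod p] M) - 1 with hsdef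
  have hσE : σ ∈ sameActionSubgroup G σ := (mem_E_iff hσ).2 (self_mem_cl hs.1)
  have hBs : ∀ b ∈ A1, conjL b s ∈ cl G s := by
    intro b hb
    rw [hsdef, ← coe_conj_sub, ← mem_E_iff hσ, ← hfix b hb]
    exact conj_mem_conjBy hσE b
  obtain ⟨t, ht, hi, hBt⟩ := fix_opp hp5 hs hC (opp s hs) A1 (fun b hb => hA0 b hb.1) hcop1 hBs
  obtain ⟨x, y, hx, hxs, hy, hyt, hxy, hfx⟩ := fix_elem (by omega) hC hi hs ht A1 (fun b hb => hA0 b hb.1) hcop1
    hodd hBs hBt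
  have hx1 : oneAdd x hx.1.1 ∈ minimalQuadraticElements G := oneAdd_mem_minimal hx
  have hy1 : oneAdd y hy.1.1 ∈ minimalQuadraticElements G := oneAdd_mem_minimal hy
  have hcx : ((oneAdd x hx.1.1 : LinearMap.GeneralLinearGroup (ZMod p) M) : M →ₗ[ZMod p] M) - 1 = x := by
    rw [coe_oneAdd, add_sub_cancel_left]
  have hcy : ((oneAdd y hy.1.1 : LinearMap.GeneralLinearGroup (ZMod p) M) : M →ₗ[ZMod p] M) - 1 = y := by
    rw [coe_oneAdd, add_sub_cancel_left]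
  -- the class of `x` is `E1`
  have hEx : sameActionSubgroup G (oneAdd x hx.1.1) = sameActionSubgroup G σ := by
    ext z
    rw [mem_E_iff hx1, mem_E_iff hσ, hcx, cl_congr (same_of_mem_cl hs hxs hx.ne_zero)]
  have hExC : sameActionSubgroup G (oneAdd x hx.1.1) ∈ C0 := by rw [hEx]; exact hE1
  have hEyC : sameActionSubgroup G (oneAdd y hy.1.1) ∈ C0 := by
    have hr := (rankOnePair_of_not_nilpotent hC hx1 hy1 (by
      rw [hcx, hcy]; exact hxy.not_isNilpotent hx.ne_zero)).1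
    exact ⟨⟨_, hy1, rfl⟩, hExC.2.tail ⟨⟨_, hx1, rfl⟩, ⟨_, hy1, rfl⟩, hr⟩⟩
  have hmemK : ∀ g, hxy.slHom g ∈ K := by
    apply slHom_mem_of
    · intro c z hz
      refine le_gen hExC ((mem_E_iff hx1).2 ?_)
      rw [hcx, hz, add_sub_cancel_left]
      exact (clS G x hx.1.1).smul_mem c (self_mem_cl hx.1)
    · intro c z hz
      refine le_gen hEyC ((mem_E_iff hy1).2 ?_)
      rw [hcy, hz, add_sub_cancel_left]
      exact (clS G y hy.1.1).smul_mem c (self_mem_cl hy.1)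
  refine ⟨A1, x, y, hxy, hx.ne_zero, fun g => hKG (hmemK g), ?_, ?_⟩
  · intro a ha g
    exact conj_slHom hxy (hfx a ha).1 (hfx a ha).2 g
  · intro a ha hna g g'
    exact comm_of_not_stab hfam hF ha (hTa a ha) (hTa' a ha) hna _ (hmemK g) _ (hmemK g')

end Cfsg.Agent.H317.KP
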