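import Cfsg.Agent.H317.KP.Fix

/-!
# The coordinate set of a rank one pair of root groups is a commutative field
-/

set_option autoImplicit false

namespace Cfsg.Agent.H317.KP

open Cfsg Cfsg.Agent.H740 Cfsg.Agent.H742 Cfsg.Agent.H731

variable {p : ℕ} [Fact p.Prime] {M : Type*} [AddCommGroup M] [Module (ZMod p) M]
variable {G : Subgroup (LinearMap.GeneralLinearGroup (ZMod p) M)}

/-- inverse of the Weyl element -/
theorem w_inv {s t : M →ₗ[ZMod p] M} (h : H742.Inv s t) :
    ((h.w⁻¹ : LinearMap.GeneralLinearGroup (ZMod p) M) : M →ₗ[ZMod p] M) = 1 - (s * t + t * s) - s + t := by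
  have h1 : (h.w : M →ₗ[ZMod p] M) * (1 - (s * t + t * s) - s + t) = 1 := by
    rw [h.coe_w]
    have e : (1 - (s * t + t * s) + s - t) * (1 - (s * t + t * s) - s + t) =
        1 - (s * t + t * s) - (s * t + t * s) + ((s * t * s) * t + s * (t * t) * s + t * (s * s) * t + (t * s * t) * s)
        - s + (s * t * s + t * (s * s)) + t - (s * (t * t) + t * s * t)
        + s - (s * s * t + s * t * s) - s * s + s * t - t + (t * s * t + t * t * s) + t * s - t * t := by
      noncomm_ring
    rw [e, h.tt, h.ss, h.sts, h.tst]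
    simp only [mul_zero, zero_mul]
    abel
  calc ((h.w⁻¹ : LinearMap.GeneralLinearGroup (ZMod p) M) : M →ₗ[ZMod p] M)
      = ((h.w⁻¹ : LinearMap.GeneralLinearGroup (ZMod p) M) : M →ₗ[ZMod p] M) *
        ((h.w : M →ₗ[ZMod p] M) * (1 - (s * t + t * s) - s + t)) := by rw [h1, mul_one]
    _ = _ := by rw [← mul_assoc, Units.inv_mul, one_mul]

/-- the action of the Weyl element on the class of `t` -/
theorem conjL_w {s t y : M →ₗ[ZMod p] M} (h : H742.Inv s t) (hy1 : LinearMap.ker t ≤ LinearMap.ker y)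
    (hy2 : LinearMap.range y ≤ LinearMap.range t) : conjL h.w y = -(s * y * s) := by
  have f1 : t * y = 0 := mul_of_range_le_ker (hy2.trans (range_le_ker_of_mul h.tt))
  have f2 : y * t = 0 := mul_of_range_le_ker ((range_le_ker_of_mul h.tt).trans hy1)
  have f3 : (t * s) * y = y := h.symm.st_mul hy2
  have f4 : y * (s * t) = y := h.mul_st hy1
  rw [conjL_apply, h.coe_w, w_inv]
  have e1 : (1 - (s * t + t * s) + s - t) * y = s * y := by
    have : (1 - (s * t + t * s) + s - t) * y = y - s * (t * y) - (t * s) * y + s * y - t * y := by noncomm_ring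
    rw [this, f1, f3]; simp
  rw [e1]
  have : s * y * (1 - (s * t + t * s) - s + t) = s * y - s * (y * (s * t)) - s * (y * t) * s - s * y * s + s * (y * t) := by
    noncomm_ring
  rw [this, f2, f4]; simp

section fin

variable [Finite M] [FiniteDimensional (ZMod p) M]

omit [Finite M] [FiniteDimensional (ZMod p) M] in
theorem cl_neg (s : M →ₗ[ZMod p] M) : cl G (-s) = cl G s := cl_congr (same_neg s)

omit [Finite M] [FiniteDimensional (ZMod p) M] in
theorem neg_mem_cl {s x : M →ₗ[ZMod p] M} (hs : s * s = 0) (hx : x ∈ cl G s) : -x ∈ cl G s :=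
  (clS G s hs).neg_mem hx

omit [Finite M] [FiniteDimensional (ZMod p) M] in
/-- the Weyl element maps the class of `t` to the class of `s` -/
theorem cl_w {s t y : M →ₗ[ZMod p] M} (h : H742.Inv s t) (hs : QIn G s) (ht : QIn G t) (hy : y ∈ cl G t) :
    conjL h.w y ∈ cl G s := by
  have h1 := conjL_mem_cl (w_mem h hs ht) hy
  have h2 : conjL h.w t = -s := by rw [conjL_w h le_rfl le_rfl, h.sts]
  rwa [h2, cl_neg] at h1

omit [Finite M] [FiniteDimensional (ZMod p) M] in
theorem sys_mem {s t y : M →ₗ[ZMod p] M} (h : H742.Inv s t) (hs : QIn G s) (ht : QIn G t) (hy : y ∈ cl G t) :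
    s * y * s ∈ cl G s := by
  have h1 := cl_w h hs ht hy
  rw [conjL_w h hy.2.1 hy.2.2] at h1
  have := neg_mem_cl h.ss h1
  rwa [neg_neg] at this

omit [Finite M] [FiniteDimensional (ZMod p) M] in
/-- the Weyl element maps the class of `s` to the class of `t` -/
theorem cl_w' {s t y : M →ₗ[ZMod p] M} (h : H742.Inv s t) (hs : QIn G s) (ht : QIn G t) (hy : y ∈ cl G s) :
    conjL h.w y ∈ cl G t := by
  have h1 := conjL_mem_cl (w_mem h hs ht) hy
  have h2 : conjL h.w s = -t := by
    rw [conjL_apply, h.coe_w, w_inv]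
    have e1 : (1 - (s * t + t * s) + s - t) * s = -(t * s) := by
      have : (1 - (s * t + t * s) + s - t) * s = s - s * t * s - t * (s * s) + s * s - t * s := by noncomm_ring
      rw [this, h.sts, h.ss]; simp
    rw [e1]
    have : -(t * s) * (1 - (s * t + t * s) - s + t) = -(t * s) + t * (s * s) * t + (t * s * t) * s + t * (s * s) - t * s * t := by
      noncomm_ring
    rw [this, h.ss, h.tst]; simp
  rwa [h2, cl_neg] at h1

omit [Finite M] in
/-- partner of a non-zero element of the class -/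
theorem partner (hC : Core G) {s t : M →ₗ[ZMod p] M} (h : H742.Inv s t) (hs : IsMin G s) (ht : IsMin G t)
    {x : M →ₗ[ZMod p] M} (hx : x ∈ cl G s) (hx0 : x ≠ 0) : ∃ y, IsMin G y ∧ Same y t ∧ H742.Inv x y := by
  have hxm := isMin_of_mem_cl hs hx hx0
  have hxs := same_of_mem_cl hs hx hx0
  have hn := h.not_isNilpotent hs.ne_zero
  rw [hC.not_isNilpotent_congr hs ht hxm ht hxs.symm (Same.refl _)] at hn
  exact hC.inv hxm ht hn

omit [Finite M] [FiniteDimensional (ZMod p) M] in
/-- both are the projection onto `range x` along `ker y` -/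
theorem proj_eq {x x' y y' : M →ₗ[ZMod p] M} (h : H742.Inv x y) (h' : H742.Inv x' y') (hx : Same x x')
    (hy : Same y y') : x * y = x' * y' := by
  have e1 : x * y * (x' * y') = x' * y' := by
    have : (x * y) * x' = x' := h.st_mul hx.2.ge
    rw [← mul_assoc, this]
  have e2 : x * y * (x' * y') = x * y := by
    have : y * (x' * y') = y := h'.mul_st hy.1.ge
    rw [mul_assoc, this]
  rw [← e1, e2]

omit [Finite M] [FiniteDimensional (ZMod p) M] in
theorem partner_unique {x y y' : M →ₗ[ZMod p] M} (h : H742.Inv x y) (h' : H742.Inv x y') (hy : Same y y') :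
    y = y' := by
  have e1 := proj_eq h h' (Same.refl x) hy
  have e2 := proj_eq h.symm h'.symm hy (Same.refl x)
  calc y = y * x * y := h.tst.symm
    _ = y' * x * y := by rw [e2]
    _ = y' * (x * y) := by rw [mul_assoc]
    _ = y' * (x * y') := by rw [e1]
    _ = y' := by rw [← mul_assoc, h'.tst]

omit [Finite M] in
/-- `x y x` is in the class of `s` for `x` in the class of `s` and `y` in the class of `t` -/
theorem U_mem (hC : Core G) {s t : M →ₗ[ZMod p] M} (h : H742.Inv s t) (hs : IsMin G s) (ht : IsMin G t)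
    {x y : M →ₗ[ZMod p] M} (hx : x ∈ cl G s) (hy : y ∈ cl G t) : x * y * x ∈ cl G s := by
  by_cases hx0 : x = 0
  · rw [hx0, zero_mul, zero_mul]
    exact (clS G s hs.sq).zero_mem
  · obtain ⟨z, hz, hzt, hi⟩ := partner hC h hs ht hx hx0
    have hy' : y ∈ cl G z := by rwa [cl_congr hzt]
    have := sys_mem hi hx.1 hz.1 hy'
    rwa [cl_congr (same_of_mem_cl hs hx hx0)] at this

/-! ### the coordinate ring -/

/-- the coordinate of `x` in `End (range s)` -/
def LL (s t : M →ₗ[ZMod p] M) : (M →ₗ[ZMod p] M) →ₗ[ZMod p] Module.End (ZMod p) (LinearMap.range s) where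
  toFun x := (s.rangeRestrict ∘ₗ t) ∘ₗ (x * t) ∘ₗ (LinearMap.range s).subtype
  map_add' x y := by rw [add_mul, LinearMap.add_comp, LinearMap.comp_add]
  map_smul' c x := by
    rw [smul_mul_assoc, LinearMap.smul_comp, LinearMap.comp_smul]; rfl

omit [Finite M] [FiniteDimensional (ZMod p) M] in
theorem LL_coe (s t x : M →ₗ[ZMod p] M) (m : LinearMap.range s) :
    ((LL s t x m : LinearMap.range s) : M) = (s * t * x * t) (m : M) := rfl

omit [Finite M] [FiniteDimensional (ZMod p) M] in
theorem LL_one {s t : M →ₗ[ZMod p] M} (h : H742.Inv s t) : LL s t s = 1 := by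
  apply LinearMap.ext
  intro m
  apply Subtype.ext
  rw [LL_coe, h.sts, Module.End.one_apply]
  obtain ⟨_, ⟨z, rfl⟩⟩ := m
  exact congrArg (fun f : M →ₗ[ZMod p] M => f z) h.sts

omit [Finite M] [FiniteDimensional (ZMod p) M] in
theorem LL_mul {s t x y : M →ₗ[ZMod p] M} (h : H742.Inv s t) (hx : LinearMap.ker s ≤ LinearMap.ker x)
    (hy : LinearMap.range y ≤ LinearMap.range s) : LL s t x * LL s t y = LL s t (x * t * y) := by
  apply LinearMap.ext
  intro m
  apply Subtype.ext
  rw [Module.End.mul_apply, LL_coe, LL_coe, LL_coe, ← Module.End.mul_apply]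
  have : s * t * x * t * (s * t * y * t) = s * t * (x * t * y) * t := by
    have e := h.st_mul hy
    calc s * t * x * t * (s * t * y * t) = s * t * x * t * ((s * t * y) * t) := rfl
      _ = _ := by rw [e]; simp only [mul_assoc]
  rw [this]

/-- The coordinate set. -/
def JJ (G : Subgroup (LinearMap.GeneralLinearGroup (ZMod p) M)) (s t : M →ₗ[ZMod p] M) (hs : s * s = 0) :
    AddSubgroup (Module.End (ZMod p) (LinearMap.range s)) :=
  ((clS G s hs).map (LL s t)).toAddSubgroup

omit [Finite M] [FiniteDimensional (ZMod p) M] in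
theorem mem_JJ {s t : M →ₗ[ZMod p] M} {hs : s * s = 0} {a : Module.End (ZMod p) (LinearMap.range s)} :
    a ∈ JJ G s t hs ↔ ∃ x ∈ cl G s, LL s t x = a := Iff.rfl

omit [Finite M] in
/-- `x y = 1` in coordinates -/
theorem LL_inv (hC : Core G) {s t : M →ₗ[ZMod p] M} (h : H742.Inv s t) (hs : IsMin G s) (ht : IsMin G t)
    {x : M →ₗ[ZMod p] M} (hx : x ∈ cl G s) (hx0 : x ≠ 0) :
    ∃ z ∈ cl G s, LL s t z * LL s t x = 1 := by
  obtain ⟨y, hy, hyt, hi⟩ := partner hC h hs ht hx hx0
  have hxs := same_of_mem_cl hs hx hx0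
  have hyc : y ∈ cl G t := ⟨hy.1, hyt.1.ge, hyt.2.le⟩
  have hz : s * y * s ∈ cl G s := sys_mem h hs.1 ht.1 hyc
  refine ⟨_, hz, ?_⟩
  rw [LL_mul h hz.2.1 hx.2.2]
  have e1 : y * (s * t) = y := h.mul_st hyt.1.ge
  have e2 : y * x = t * s := proj_eq hi.symm h.symm hyt hxs
  have : s * y * s * t * x = s := by
    calc s * y * s * t * x = s * (y * (s * t)) * x := by simp only [mul_assoc]
      _ = s * (y * x) := by rw [e1, mul_assoc]
      _ = s := by rw [e2, ← mul_assoc, h.sts]
  rw [this, LL_one h]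

end fin

end Cfsg.Agent.H317.KP
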