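import Cfsg.Agent.H317.KP.Coord
import Cfsg.Agent.S0205

/-!
# A coprime operator group fixing two opposite root groups fixes an element of each
-/

set_option autoImplicit false

namespace Cfsg.Agent.H317.KP

open Cfsg Cfsg.Agent.H740 Cfsg.Agent.H742 Cfsg.Agent.H731

/-- among three non-zero elements of a finite field two have a square product -/
theorem sq_of_three {K : Type*} [CommRing K] [Finite K] (hK : IsField K) (h2 : (2 : K) ≠ 0) {a b c : K} (ha : a ≠ 0)
    (hb : b ≠ 0) (hc : c ≠ 0) : (∃ z, z * z = a * b) ∨ (∃ z, z * z = b * c) ∨ ∃ z, z * z = a * c := by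
  classical
  let _ : Field K := hK.toField
  have : Fintype K := Fintype.ofFinite K
  have hchar : ringChar K ≠ 2 := by
    intro h
    apply h2
    have := ringChar.Nat.cast_ringChar (R := K)
    rw [h] at this
    exact_mod_cast this
  have hab : a * b ≠ 0 := mul_ne_zero ha hb
  have hbc : b * c ≠ 0 := mul_ne_zero hb hc
  have hac : a * c ≠ 0 := mul_ne_zero ha hc
  have key : ∀ x : K, x ≠ 0 → quadraticChar K x = 1 → ∃ z, z * z = x := by
    intro x hx h
    obtain ⟨z, hz⟩ := (quadraticChar_one_iff_isSquare hx).1 h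
    exact ⟨z, hz.symm⟩
  rcases quadraticChar_dichotomy hab with h | h
  · exact Or.inl (key _ hab h)
  rcases quadraticChar_dichotomy hbc with h' | h'
  · exact Or.inr (Or.inl (key _ hbc h'))
  · refine Or.inr (Or.inr (key _ hac ?_))
    have h3 : quadraticChar K (a * b) * quadraticChar K (b * c) = quadraticChar K (b ^ 2) * quadraticChar K (a * c) := by
      rw [← map_mul, ← map_mul]; congr 1; ring
    rw [h, h', quadraticChar_sq_one' hb, one_mul] at h3
    rw [← h3]; norm_num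

variable {p : ℕ} [Fact p.Prime] {M : Type*} [AddCommGroup M] [Module (ZMod p) M]
variable {G : Subgroup (LinearMap.GeneralLinearGroup (ZMod p) M)}

/-- stabiliser of a set of endomorphisms -/
def stabC (C : Set (M →ₗ[ZMod p] M)) : Subgroup (LinearMap.GeneralLinearGroup (ZMod p) M) where
  carrier := {g | (fun x => conjL g x) '' C = C}
  one_mem' := by
    simp only [Set.mem_setOf_eq, conjL_id, Set.image_id']
  mul_mem' := by
    intro g h hg hh
    simp only [Set.mem_setOf_eq] at hg hh ⊢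
    have : (fun x => conjL (g * h) x) '' C = (fun x => conjL g x) '' ((fun x => conjL h x) '' C) := by
      simp only [Set.image_image, conjL_conjL]
    rw [this, hh, hg]
  inv_mem' := by
    intro g hg
    simp only [Set.mem_setOf_eq] at hg ⊢
    conv_lhs => rw [← hg]
    simp only [Set.image_image, conjL_conjL, inv_mul_cancel, conjL_id, Set.image_id']

theorem mem_stabC {C : Set (M →ₗ[ZMod p] M)} {g : LinearMap.GeneralLinearGroup (ZMod p) M} :
    g ∈ stabC C ↔ (fun x => conjL g x) '' C = C := Iff.rfl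

theorem stabC_mem {C : Set (M →ₗ[ZMod p] M)} {g : LinearMap.GeneralLinearGroup (ZMod p) M} (hg : g ∈ stabC C)
    {x : M →ₗ[ZMod p] M} (hx : x ∈ C) : conjL g x ∈ C := by
  rw [← mem_stabC.1 hg]
  exact ⟨x, hx, rfl⟩

variable [Finite M] [FiniteDimensional (ZMod p) M]

omit [Finite M] in
theorem mem_stabC_cl {s : M →ₗ[ZMod p] M} (hs : IsMin G s) {g : LinearMap.GeneralLinearGroup (ZMod p) M}
    (hg : Nz G g) (hg' : Nz G g⁻¹) (h : conjL g s ∈ cl G s) : g ∈ stabC (cl G s) := by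
  rw [mem_stabC, conjL_image_cl hg hg', cl_congr (same_of_mem_cl hs h (fun h0 => hs.ne_zero (conjL_eq_zero h0)))]

/-- the group stabilising both classes -/
def HH (G : Subgroup (LinearMap.GeneralLinearGroup (ZMod p) M)) (s t : M →ₗ[ZMod p] M) :
    Subgroup (LinearMap.GeneralLinearGroup (ZMod p) M) :=
  G ⊓ (stabC (cl G s) ⊓ stabC (cl G t))

section data

variable (hp2 : p ≠ 2) (hC : Core G) {s t : M →ₗ[ZMod p] M} (h : H742.Inv s t) (hs : IsMin G s) (ht : IsMin G t)

include hs in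
omit [Finite M] [FiniteDimensional (ZMod p) M] in
theorem charP_end : CharP (Module.End (ZMod p) (LinearMap.range s)) p := by
  have : Nontrivial (LinearMap.range s) := by
    rw [Submodule.nontrivial_iff_ne_bot]
    intro h0
    exact hs.ne_zero (LinearMap.range_eq_bot.1 h0)
  exact charP_of_injective_algebraMap (algebraMap (ZMod p) (Module.End (ZMod p) (LinearMap.range s))).injective p

include hC h hs ht in
omit [Finite M] in
theorem JJ_unit {a : Module.End (ZMod p) (LinearMap.range s)} [Finite M] (ha : a ∈ JJ G s t hs.sq) (ha0 : a ≠ 0) :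
    IsUnit a := by
  obtain ⟨x, hx, rfl⟩ := mem_JJ.1 ha
  have hx0 : x ≠ 0 := by rintro rfl; exact ha0 (map_zero _)
  obtain ⟨z, hz, hzx⟩ := LL_inv hC h hs ht hx hx0
  exact Jordan.isUnit_of_left (u := LL s t z) (by rw [hzx]; exact isUnit_one)

include hC h hs ht in
omit [Finite M] in
theorem LL_inj {x y : M →ₗ[ZMod p] M} (hx : x ∈ cl G s) (hy : y ∈ cl G s) (he : LL s t x = LL s t y) : x = y := by
  by_contra hne
  have hz : x - y ∈ cl G s := (clS G s hs.sq).sub_mem hx hy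
  obtain ⟨z, hz', hzx⟩ := LL_inv hC h hs ht hz (sub_ne_zero.2 hne)
  rw [map_sub, he, sub_self, mul_zero] at hzx
  have : Nontrivial (LinearMap.range s) := by
    rw [Submodule.nontrivial_iff_ne_bot]
    exact fun h0 => hs.ne_zero (LinearMap.range_eq_bot.1 h0)
  exact zero_ne_one hzx

include hC h hs ht in
omit [Finite M] in
theorem LL_U {x y : M →ₗ[ZMod p] M} (hx : x ∈ cl G s) (hy : y ∈ cl G s) :
    x * (t * y * t) * x ∈ cl G s ∧ LL s t (x * (t * y * t) * x) = LL s t x * LL s t y * LL s t x := by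
  refine ⟨U_mem hC h hs ht hx (sys_mem h.symm ht.1 hs.1 hy), ?_⟩
  rw [LL_mul h hx.2.1 hy.2.2, LL_mul h _ hx.2.2]
  · simp only [mul_assoc]
  · intro m hm
    have := hy.2.1 hm
    rw [LinearMap.mem_ker] at this ⊢
    rw [Module.End.mul_apply, this, map_zero]

include hC h hs ht hp2 in
theorem JJ_comm {a b : Module.End (ZMod p) (LinearMap.range s)} (ha : a ∈ JJ G s t hs.sq) (hb : b ∈ JJ G s t hs.sq) :
    a * b = b * a := by
  have := charP_end hs
  have : Finite (Module.End (ZMod p) (LinearMap.range s)) := finEnd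
  refine Jordan.jordan_comm hp2 (JJ G s t hs.sq) ?_ ?_ ?_ ha hb
  · exact ⟨s, self_mem_cl hs.1, LL_one h⟩
  · rintro _ ⟨x, hx, rfl⟩ _ ⟨y, hy, rfl⟩
    obtain ⟨h1, h2⟩ := LL_U hC h hs ht hx hy
    exact ⟨_, h1, h2⟩
  · intro a ha ha0
    exact JJ_unit hC h hs ht ha ha0

include hC h hs ht hp2 in
/-- `x` and `y` are conjugate under `HH` when the product of the coordinates is a square -/
theorem equiv_of_sq {x y : M →ₗ[ZMod p] M} (hx : x ∈ cl G s) (hx0 : x ≠ 0) (hy : y ∈ cl G s) (hy0 : y ≠ 0)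
    {z : Module.End (ZMod p) (LinearMap.range s)} (hz : z ∈ JJ G s t hs.sq)
    (hzz : z * z = LL s t x * LL s t y) : ∃ g ∈ HH G s t, conjL g x = y := by
  have hLx : LL s t x ∈ JJ G s t hs.sq := ⟨x, hx, rfl⟩
  have hLy : LL s t y ∈ JJ G s t hs.sq := ⟨y, hy, rfl⟩
  have hLx0 : LL s t x ≠ 0 := fun h0 => hx0 (LL_inj hC h hs ht hx (clS G s hs.sq).zero_mem (by rw [h0, map_zero]))
  have hLy0 : LL s t y ≠ 0 := fun h0 => hy0 (LL_inj hC h hs ht hy (clS G s hs.sq).zero_mem (by rw [h0, map_zero]))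
  have ux := JJ_unit hC h hs ht hLx hLx0
  have uy := JJ_unit hC h hs ht hLy hLy0
  -- the inverse of `x` in coordinates
  obtain ⟨x', hx', hxx'⟩ := LL_inv hC h hs ht hx hx0
  -- `ζ = z x⁻¹` is in `J`
  have hcomm := fun {a b : Module.End (ZMod p) (LinearMap.range s)} (ha : a ∈ JJ G s t hs.sq)
    (hb : b ∈ JJ G s t hs.sq) => JJ_comm hp2 hC h hs ht ha hb
  have hLx' : LL s t x' ∈ JJ G s t hs.sq := ⟨x', hx', rfl⟩
  obtain ⟨z₀, hz₀, rfl⟩ := hz
  have hmulJ : ∀ {a b : M →ₗ[ZMod p] M}, a ∈ cl G s → b ∈ cl G s → ∃ c ∈ cl G s, LL s t c = LL s t a * LL s t b := by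
    intro a b ha hb
    have h2 : (2 : ZMod p) ≠ 0 := by
      intro h2
      have : ((2 : ℕ) : ZMod p) = 0 := by exact_mod_cast h2
      rw [ZMod.natCast_eq_zero_iff] at this
      exact hp2 ((Nat.prime_dvd_prime_iff_eq (Fact.out : p.Prime) Nat.prime_two).1 this)
    have hab := (clS G s hs.sq).add_mem ha hb
    have s1 := LL_U hC h hs ht hab (self_mem_cl hs.1)
    have s2 := LL_U hC h hs ht ha (self_mem_cl hs.1)
    have s3 := LL_U hC h hs ht hb (self_mem_cl hs.1)
    rw [LL_one h, mul_one] at s1 s2 s3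
    refine ⟨(2 : ZMod p)⁻¹ • ((a + b) * (t * s * t) * (a + b) - a * (t * s * t) * a - b * (t * s * t) * b), ?_, ?_⟩
    · exact (clS G s hs.sq).smul_mem _ ((clS G s hs.sq).sub_mem ((clS G s hs.sq).sub_mem s1.1 s2.1) s3.1)
    · rw [map_smul, map_sub, map_sub, s1.2, s2.2, s3.2, map_add]
      have hc := hcomm (a := LL s t a) (b := LL s t b) ⟨a, ha, rfl⟩ ⟨b, hb, rfl⟩
      have : (LL s t a + LL s t b) * (LL s t a + LL s t b) - LL s t a * LL s t a - LL s t b * LL s t b
          = (2 : ZMod p) • (LL s t a * LL s t b) := by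
        rw [mul_add, add_mul, add_mul, ← hc, two_smul]; abel
      rw [this, smul_smul, inv_mul_cancel₀ h2, one_smul]
  obtain ⟨ζ, hζ, hζe⟩ := hmulJ hz₀ hx'
  have hLζ : LL s t ζ ∈ JJ G s t hs.sq := ⟨ζ, hζ, rfl⟩
  have e1 : LL s t ζ * LL s t x = LL s t z₀ := by
    rw [hζe, mul_assoc, hxx', mul_one]
  have e2 : LL s t ζ * LL s t x * LL s t ζ = LL s t y := by
    have e3 : LL s t ζ * LL s t x * LL s t ζ * LL s t x = LL s t y * LL s t x := by
      rw [mul_assoc _ (LL s t ζ), e1]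
      rw [hzz, hcomm hLx hLy]
    exact ux.mul_right_cancel e3
  have hz₀0 : LL s t z₀ ≠ 0 := by
    intro h0
    rw [h0, mul_zero] at hzz
    exact hLy0 (ux.mul_right_eq_zero.1 hzz.symm)
  have hζ0 : ζ ≠ 0 := by
    rintro rfl
    rw [map_zero, zero_mul] at e1
    exact hz₀0 e1.symm
  obtain ⟨ζ', hζ'm, hζ's, hi⟩ := partner hC h hs ht hζ hζ0
  have hζm := isMin_of_mem_cl hs hζ hζ0
  have hζs := same_of_mem_cl hs hζ hζ0
  refine ⟨hi.w * h.symm.w, ⟨G.mul_mem (w_mem hi hζ.1 hζ'm.1) (w_mem h.symm ht.1 hs.1), ?_, ?_⟩, ?_⟩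
  · apply mem_stabC_cl hs (nz_of_mem (G.mul_mem (w_mem hi hζ.1 hζ'm.1) (w_mem h.symm ht.1 hs.1)))
      (nz_of_mem (G.inv_mem (G.mul_mem (w_mem hi hζ.1 hζ'm.1) (w_mem h.symm ht.1 hs.1))))
    rw [← conjL_conjL]
    have f1 : conjL h.symm.w s ∈ cl G t := cl_w h.symm ht.1 hs.1 (self_mem_cl hs.1)
    rw [← cl_congr hζ's] at f1
    have f2 := cl_w hi hζ.1 hζ'm.1 f1
    rwa [cl_congr hζs] at f2
  · apply mem_stabC_cl ht (nz_of_mem (G.mul_mem (w_mem hi hζ.1 hζ'm.1) (w_mem h.symm ht.1 hs.1)))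
      (nz_of_mem (G.inv_mem (G.mul_mem (w_mem hi hζ.1 hζ'm.1) (w_mem h.symm ht.1 hs.1))))
    rw [← conjL_conjL]
    have f1 : conjL h.symm.w t ∈ cl G s := cl_w' h.symm ht.1 hs.1 (self_mem_cl ht.1)
    rw [← cl_congr hζs] at f1
    have f2 := cl_w' hi hζ.1 hζ'm.1 f1
    rwa [cl_congr hζ's] at f2
  · have g1 : t * x * t ∈ cl G t := sys_mem h.symm ht.1 hs.1 hx
    have g2 : conjL (hi.w * h.symm.w) x = ζ * (t * x * t) * ζ := by
      rw [← conjL_conjL, conjL_w h.symm hx.2.1 hx.2.2, map_neg]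
      rw [← cl_congr hζ's] at g1
      rw [conjL_w hi g1.2.1 g1.2.2, neg_neg]
    rw [g2]
    obtain ⟨k1, k2⟩ := LL_U hC h hs ht hζ hx
    exact LL_inj hC h hs ht k1 hy (by rw [k2, e2])

end data

end Cfsg.Agent.H317.KP
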