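import Cfsg.Agent.H317.KP.Elem

/-!
# A coprime operator group fixing two opposite root groups fixes an element of each, second part
-/

set_option autoImplicit false

namespace Cfsg.Agent.H317.KP

open Cfsg Cfsg.Agent.H740 Cfsg.Agent.H742 Cfsg.Agent.H731

theorem sq_of_three' {K : Type*} [Ring K] [Finite K] (hK : IsField K) (h2 : (2 : K) ≠ 0) {a b c : K} (ha : a ≠ 0)
    (hb : b ≠ 0) (hc : c ≠ 0) : (∃ z, z * z = a * b) ∨ (∃ z, z * z = b * c) ∨ ∃ z, z * z = a * c := by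
  let _ : CommRing K := { (inferInstance : Ring K) with mul_comm := hK.mul_comm }
  exact sq_of_three hK h2 ha hb hc

variable {p : ℕ} [Fact p.Prime] {M : Type*} [AddCommGroup M] [Module (ZMod p) M]
variable {G : Subgroup (LinearMap.GeneralLinearGroup (ZMod p) M)} [Finite M] [FiniteDimensional (ZMod p) M]

section data

variable (hp2 : p ≠ 2) (hC : Core G) {s t : M →ₗ[ZMod p] M} (h : H742.Inv s t) (hs : IsMin G s) (ht : IsMin G t)

include hC h hs ht hp2 in
theorem JJ_mul {a b : Module.End (ZMod p) (LinearMap.range s)} (ha : a ∈ JJ G s t hs.sq) (hb : b ∈ JJ G s t hs.sq) :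
    a * b ∈ JJ G s t hs.sq := by
  obtain ⟨x, hx, rfl⟩ := ha
  obtain ⟨y, hy, rfl⟩ := hb
  have h2 : (2 : ZMod p) ≠ 0 := by
    intro h2
    have : ((2 : ℕ) : ZMod p) = 0 := by exact_mod_cast h2
    rw [ZMod.natCast_eq_zero_iff] at this
    exact hp2 ((Nat.prime_dvd_prime_iff_eq (Fact.out : p.Prime) Nat.prime_two).1 this)
  have hab := (clS G s hs.sq).add_mem hx hy
  have s1 := LL_U hC h hs ht hab (self_mem_cl hs.1)
  have s2 := LL_U hC h hs ht hx (self_mem_cl hs.1)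
  have s3 := LL_U hC h hs ht hy (self_mem_cl hs.1)
  rw [LL_one h, mul_one] at s1 s2 s3
  refine ⟨(2 : ZMod p)⁻¹ • ((x + y) * (t * s * t) * (x + y) - x * (t * s * t) * x - y * (t * s * t) * y), ?_, ?_⟩
  · exact (clS G s hs.sq).smul_mem _ ((clS G s hs.sq).sub_mem ((clS G s hs.sq).sub_mem s1.1 s2.1) s3.1)
  · rw [map_smul, map_sub, map_sub, s1.2, s2.2, s3.2, map_add]
    have hc := JJ_comm hp2 hC h hs ht (a := LL s t x) (b := LL s t y) ⟨x, hx, rfl⟩ ⟨y, hy, rfl⟩
    have : (LL s t x + LL s t y) * (LL s t x + LL s t y) - LL s t x * LL s t x - LL s t y * LL s t y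
        = (2 : ZMod p) • (LL s t x * LL s t y) := by
      rw [mul_add, add_mul, add_mul, ← hc, two_smul]; abel
    rw [this, smul_smul, inv_mul_cancel₀ h2, one_smul]

include hC h hs ht hp2 in
/-- two of three elements are equivalent -/
theorem two_class {x y z : M →ₗ[ZMod p] M} (hx : x ∈ cl G s) (hx0 : x ≠ 0) (hy : y ∈ cl G s) (hy0 : y ≠ 0)
    (hz : z ∈ cl G s) (hz0 : z ≠ 0) :
    (∃ g ∈ HH G s t, conjL g x = y) ∨ (∃ g ∈ HH G s t, conjL g y = z) ∨ ∃ g ∈ HH G s t, conjL g x = z := by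
  have : Finite (Module.End (ZMod p) (LinearMap.range s)) := finEnd
  have hchar := charP_end (G := G) hs
  have hnt : Nontrivial (LinearMap.range s) := by
    rw [Submodule.nontrivial_iff_ne_bot]
    exact fun h0 => hs.ne_zero (LinearMap.range_eq_bot.1 h0)
  let K : Subring (Module.End (ZMod p) (LinearMap.range s)) :=
    { carrier := JJ G s t hs.sq
      zero_mem' := (JJ G s t hs.sq).zero_mem
      one_mem' := ⟨s, self_mem_cl hs.1, LL_one h⟩
      add_mem' := fun ha hb => (JJ G s t hs.sq).add_mem ha hb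
      neg_mem' := fun ha => (JJ G s t hs.sq).neg_mem ha
      mul_mem' := fun ha hb => JJ_mul hp2 hC h hs ht ha hb }
  have hKJ : ∀ {a}, a ∈ K ↔ a ∈ JJ G s t hs.sq := Iff.rfl
  have : NoZeroDivisors K := ⟨by
    rintro ⟨a, ha⟩ ⟨b, hb⟩ hab
    have hab' : a * b = 0 := congrArg Subtype.val hab
    by_cases h0 : a = 0
    · exact Or.inl (Subtype.ext h0)
    · right
      exact Subtype.ext ((JJ_unit hC h hs ht ha h0).mul_right_eq_zero.1 hab')⟩
  have : IsDomain K := NoZeroDivisors.to_isDomain K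
  have hF := Finite.isDomain_to_isField K
  have h2 : (2 : K) ≠ 0 := by
    intro h2
    have h3 : (2 : Module.End (ZMod p) (LinearMap.range s)) = 0 := congrArg Subtype.val h2
    have h4 : ((2 : ℕ) : Module.End (ZMod p) (LinearMap.range s)) = 0 := by exact_mod_cast h3
    rw [CharP.cast_eq_zero_iff _ p] at h4
    exact hp2 ((Nat.prime_dvd_prime_iff_eq (Fact.out : p.Prime) Nat.prime_two).1 h4)
  have ne0 : ∀ {x : M →ₗ[ZMod p] M} (hx : x ∈ cl G s), x ≠ 0 → (⟨LL s t x, ⟨x, hx, rfl⟩⟩ : K) ≠ 0 := by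
    intro x hx hx0 h0
    exact hx0 (LL_inj hC h hs ht hx (clS G s hs.sq).zero_mem (by rw [map_zero]; exact congrArg Subtype.val h0))
  rcases sq_of_three' hF h2 (ne0 hx hx0) (ne0 hy hy0) (ne0 hz hz0) with ⟨w, hw⟩ | ⟨w, hw⟩ | ⟨w, hw⟩
  · exact Or.inl (equiv_of_sq hp2 hC h hs ht hx hx0 hy hy0 w.2 (congrArg Subtype.val hw))
  · exact Or.inr (Or.inl (equiv_of_sq hp2 hC h hs ht hy hy0 hz hz0 w.2 (congrArg Subtype.val hw)))
  · exact Or.inr (Or.inr (equiv_of_sq hp2 hC h hs ht hx hx0 hz hz0 w.2 (congrArg Subtype.val hw)))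

include hC h hs ht hp2 in
/-- **A coprime operator group fixing two opposite classes fixes an inverse pair.** -/
theorem fix_elem (B : Subgroup (LinearMap.GeneralLinearGroup (ZMod p) M))
    (hBG : ∀ b ∈ B, Nz G b) (hcop : (Nat.card ↥B).Coprime (Nat.card ↥G)) (hodd : Odd (Nat.card ↥B))
    (hBs : ∀ b ∈ B, conjL b s ∈ cl G s) (hBt : ∀ b ∈ B, conjL b t ∈ cl G t) :
    ∃ x y, IsMin G x ∧ x ∈ cl G s ∧ IsMin G y ∧ y ∈ cl G t ∧ H742.Inv x y ∧
      ∀ b ∈ B, conjL b x = x ∧ conjL b y = y := by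
  have hBs' : ∀ b ∈ B, b ∈ stabC (cl G s) := fun b hb =>
    mem_stabC_cl hs (hBG b hb) (hBG _ (B.inv_mem hb)) (hBs b hb)
  have hBt' : ∀ b ∈ B, b ∈ stabC (cl G t) := fun b hb =>
    mem_stabC_cl ht (hBG b hb) (hBG _ (B.inv_mem hb)) (hBt b hb)
  have hnH : ∀ b ∈ B, ∀ g ∈ HH G s t, b * g * b⁻¹ ∈ HH G s t := by
    intro b hb g hg
    refine ⟨hBG b hb g hg.1, ?_, ?_⟩
    · exact Subgroup.mul_mem _ (Subgroup.mul_mem _ (hBs' b hb) hg.2.1) (Subgroup.inv_mem _ (hBs' b hb))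
    · exact Subgroup.mul_mem _ (Subgroup.mul_mem _ (hBt' b hb) hg.2.2) (Subgroup.inv_mem _ (hBt' b hb))
  -- `Eqv`
  let Eqv : (M →ₗ[ZMod p] M) → (M →ₗ[ZMod p] M) → Prop := fun x y => ∃ g ∈ HH G s t, conjL g x = y
  have esymm : ∀ {x y}, Eqv x y → Eqv y x := by
    rintro x y ⟨g, hg, rfl⟩
    exact ⟨g⁻¹, (HH G s t).inv_mem hg, by rw [conjL_conjL, inv_mul_cancel, conjL_id]⟩
  have etrans : ∀ {x y z}, Eqv x y → Eqv y z → Eqv x z := by
    rintro x y z ⟨g, hg, rfl⟩ ⟨g', hg', rfl⟩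
    exact ⟨g' * g, (HH G s t).mul_mem hg' hg, by rw [conjL_conjL]⟩
  have eB : ∀ {x y} {b}, b ∈ B → Eqv x y → Eqv (conjL b x) (conjL b y) := by
    rintro x y b hb ⟨g, hg, rfl⟩
    refine ⟨b * g * b⁻¹, hnH b hb g hg, ?_⟩
    rw [conjL_conjL, conjL_conjL]
    congr 1
    group
  have ne0 : ∀ {b} {x : M →ₗ[ZMod p] M}, x ≠ 0 → conjL b x ≠ 0 := fun hx h0 => hx (conjL_eq_zero h0)
  have hall : ∀ b ∈ B, Eqv (conjL b s) s := by
    intro b hb
    by_contra hne
    have hb2 : Eqv (conjL (b ^ 2) s) s := by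
      have m1 := hBs b hb
      have m2 : conjL (b ^ 2) s ∈ cl G s := hBs _ (B.pow_mem hb 2)
      rcases two_class hp2 hC h hs ht (self_mem_cl hs.1) hs.ne_zero m1 (ne0 hs.ne_zero) m2 (ne0 hs.ne_zero)
        with h1 | h1 | h1
      · exact absurd (esymm h1) hne
      · exfalso
        apply hne
        have h2 : Eqv (conjL b⁻¹ (conjL b s)) (conjL b⁻¹ (conjL (b ^ 2) s)) := eB (B.inv_mem hb) h1
        rw [conjL_conjL, conjL_conjL, inv_mul_cancel, conjL_id, pow_two, inv_mul_cancel_left] at h2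
        exact esymm h2
      · exact esymm h1
    have hev : ∀ n : ℕ, Eqv (conjL (b ^ (2 * n)) s) s := by
      intro n
      induction n with
      | zero => exact ⟨1, (HH G s t).one_mem, by simp only [mul_zero, pow_zero, conjL_id]⟩
      | succ n ih =>
        have h3 := eB (B.pow_mem hb 2) ih
        rw [conjL_conjL, ← pow_add] at h3
        have : 2 + 2 * n = 2 * (n + 1) := by ring
        rw [this] at h3
        exact etrans h3 hb2
    have hord : Odd (orderOf b) := by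
      have h4 : orderOf b ∣ Nat.card ↥B := by
        rw [← Subgroup.orderOf_mk b hb]
        exact orderOf_dvd_natCard _
      exact Odd.of_dvd_nat hodd h4
    obtain ⟨m, hm⟩ := hord
    have h5 := hev (m + 1)
    have h6 : b ^ (2 * (m + 1)) = b := by
      have : 2 * (m + 1) = orderOf b + 1 := by rw [hm]; ring
      rw [this, pow_succ, pow_orderOf_eq_one, one_mul]
    rw [h6] at h5
    exact hne h5
  have hsol : Group.IsSolvable ↥B := Cfsg.Agent.S0205.result hodd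
  obtain ⟨x, hxT, hxf⟩ := glaub (Γ := LinearMap.GeneralLinearGroup (ZMod p) M)
    (fun g (x : M →ₗ[ZMod p] M) => conjL g x)
    (fun x => conjL_id x)
    (fun g h x => (conjL_conjL g h x).symm)
    (HH G s t) B hnH (hcop.coprime_dvd_right (Subgroup.card_dvd_of_le inf_le_left)) (Or.inl hsol)
    {x | Eqv s x} ⟨s, 1, (HH G s t).one_mem, conjL_id s⟩
    (by
      intro b hb x hx
      exact etrans (esymm (hall b hb)) (eB hb hx))
    (by
      intro u hu x hx
      exact etrans hx ⟨u, hu, rfl⟩)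
    (by
      intro x hx y hy
      exact etrans (esymm hx) hy)
  obtain ⟨g, hg, rfl⟩ := hxT
  have hx : conjL g s ∈ cl G s := stabC_mem hg.2.1 (self_mem_cl hs.1)
  have hx0 : conjL g s ≠ 0 := ne0 hs.ne_zero
  obtain ⟨y, hy, hyt, hi⟩ := partner hC h hs ht hx hx0
  have hyc : y ∈ cl G t := ⟨hy.1, hyt.1.ge, hyt.2.le⟩
  refine ⟨_, y, isMin_of_mem_cl hs hx hx0, hx, hy, hyc, hi, fun b hb => ⟨hxf b hb, ?_⟩⟩
  have h7 := inv_conjL hi b
  have h8 : conjL b (conjL g s) = conjL g s := hxf b hb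
  rw [h8] at h7
  have h9 : conjL b y ∈ cl G t := stabC_mem (hBt' b hb) hyc
  have h10 := same_of_mem_cl ht h9 (ne0 hy.ne_zero)
  exact partner_unique h7 hi (h10.trans hyt.symm)

end data

end Cfsg.Agent.H317.KP
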