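import Cfsg.Agent.H532.CopAct

/-!
# Glauberman's lemma inside an ambient group, for an action given as a function
-/

set_option autoImplicit false

namespace Cfsg.Agent.H317.KP

universe u v

/-- `B` acts on `U` by conjugation, coprimely; both act (through `act`) on the set `T`, `U` transitively. Then `B` has a
fixed point on `T`. -/
theorem glaub {Γ : Type u} [Group Γ] {Ω : Type v} (act : Γ → Ω → Ω) (h1 : ∀ ω, act 1 ω = ω)
    (hm : ∀ g h ω, act (g * h) ω = act g (act h ω)) (U B : Subgroup Γ) [Finite ↥U] [Finite ↥B]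
    (hn : ∀ b ∈ B, ∀ u ∈ U, b * u * b⁻¹ ∈ U) (hcop : (Nat.card ↥B).Coprime (Nat.card ↥U))
    (hsolv : Group.IsSolvable ↥B ∨ Group.IsSolvable ↥U) (T : Set Ω) (hne : T.Nonempty)
    (hB : ∀ b ∈ B, ∀ ω ∈ T, act b ω ∈ T) (hU : ∀ u ∈ U, ∀ ω ∈ T, act u ω ∈ T)
    (htr : ∀ ω ∈ T, ∀ ω' ∈ T, ∃ u ∈ U, act u ω = ω') : ∃ ω ∈ T, ∀ b ∈ B, act b ω = ω := by
  classical
  let aBU : MulDistribMulAction ↥B ↥U :=
    { smul := fun b u => ⟨(b : Γ) * u * (b : Γ)⁻¹, hn b b.2 u u.2⟩
      one_smul := fun u => Subtype.ext (by change (1 : Γ) * u * (1 : Γ)⁻¹ = u; simp)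
      mul_smul := fun b c u => Subtype.ext (by
        change ((b : Γ) * c) * u * ((b : Γ) * c)⁻¹ = b * (c * u * (c : Γ)⁻¹) * (b : Γ)⁻¹
        group)
      smul_mul := fun b u v => Subtype.ext (by
        change (b : Γ) * (u * v) * (b : Γ)⁻¹ = (b * u * (b : Γ)⁻¹) * (b * v * (b : Γ)⁻¹)
        group)
      smul_one := fun b => Subtype.ext (by change (b : Γ) * 1 * (b : Γ)⁻¹ = 1; simp) }
  let aU : MulAction ↥U T :=
    { smul := fun u ω => ⟨act u ω, hU u u.2 ω ω.2⟩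
      one_smul := fun ω => Subtype.ext (h1 ω)
      mul_smul := fun u v ω => Subtype.ext (hm u v ω) }
  let aB : MulAction ↥B T :=
    { smul := fun u ω => ⟨act u ω, hB u u.2 ω ω.2⟩
      one_smul := fun ω => Subtype.ext (h1 ω)
      mul_smul := fun u v ω => Subtype.ext (hm u v ω) }
  have : Nonempty T := hne.to_subtype
  obtain ⟨⟨ω, hω⟩, -⟩ := Cfsg.Agent.H532.CopAct.glauberman (A := ↥B) (G := ↥U) (Ω := T)
    (by
      intro b u ω
      apply Subtype.ext
      change act b (act u ω) = act (b * u * (b : Γ)⁻¹) (act b ω)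
      rw [← hm, ← hm]
      congr 1
      group)
    hcop hsolv
    (by
      rintro ⟨ω, h⟩ ⟨ω', h'⟩
      obtain ⟨u, hu, he⟩ := htr ω h ω' h'
      exact ⟨⟨u, hu⟩, Subtype.ext he⟩)
  exact ⟨ω, ω.2, fun b hb => congrArg Subtype.val (hω ⟨b, hb⟩)⟩

/-- `|B|` odd suffices for solvability. -/
theorem solvable_of_odd {B : Type u} [Group B] [Finite B] (h : Odd (Nat.card B))
    (fot : ∀ (G : Type u) [Group G] [Finite G], Odd (Nat.card G) → Group.IsSolvable G) : Group.IsSolvable B :=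
  fot B h

end Cfsg.Agent.H317.KP
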