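import Cfsg.Agent.H317.KP.Trans2
import Cfsg.Agent.H317.KP.Glaub
import Cfsg.Agent.H317.KP.Jordan3

/-!
# Fixed points of coprime operator groups on opposite root groups
-/

set_option autoImplicit false

namespace Cfsg.Agent.H317.KP

open Cfsg Cfsg.Agent.H740 Cfsg.Agent.H742 Cfsg.Agent.H731

variable {p : ℕ} [Fact p.Prime] {M : Type*} [AddCommGroup M] [Module (ZMod p) M]

local notation "GL" => LinearMap.GeneralLinearGroup (ZMod p) M

instance finEnd [Finite M] : Finite (M →ₗ[ZMod p] M) :=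
  Finite.of_injective (fun f : M →ₗ[ZMod p] M => (f : M → M)) DFunLike.coe_injective

instance finGL [Finite M] : Finite (LinearMap.GeneralLinearGroup (ZMod p) M) :=
  Finite.of_injective (fun f : LinearMap.GeneralLinearGroup (ZMod p) M => (f : M →ₗ[ZMod p] M)) Units.val_injective

variable {G : Subgroup (LinearMap.GeneralLinearGroup (ZMod p) M)}

/-- `b` normalises `G` -/
def Nz (G : Subgroup (LinearMap.GeneralLinearGroup (ZMod p) M)) (b : LinearMap.GeneralLinearGroup (ZMod p) M) : Prop :=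
  ∀ x ∈ G, b * x * b⁻¹ ∈ G

theorem conjL_eq_zero {g : LinearMap.GeneralLinearGroup (ZMod p) M} {x : M →ₗ[ZMod p] M} (h : conjL g x = 0) : x = 0 :=
  conjL_injective g (by rw [h, map_zero])

theorem finrank_conjL (g : LinearMap.GeneralLinearGroup (ZMod p) M) (x : M →ₗ[ZMod p] M) :
    Module.finrank (ZMod p) (LinearMap.range (conjL g x)) = Module.finrank (ZMod p) (LinearMap.range x) := by
  rw [conjL_apply, range_conj]
  have hinj : Function.Injective (g : M →ₗ[ZMod p] M) := by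
    intro x y hxy
    have := congrArg (fun x => ((g⁻¹ : LinearMap.GeneralLinearGroup (ZMod p) M) : M →ₗ[ZMod p] M) x) hxy
    rwa [← Module.End.mul_apply, ← Module.End.mul_apply, Units.inv_mul, Module.End.one_apply,
      Module.End.one_apply] at this
  exact (LinearEquiv.finrank_eq (Submodule.equivMapOfInjective _ hinj _)).symm

theorem isMin_conjL {b : LinearMap.GeneralLinearGroup (ZMod p) M} (hb : Nz G b) {s : M →ₗ[ZMod p] M}
    (h : IsMin G s) : IsMin G (conjL b s) :=
  h.of_finrank_le (h.1.conj_of_normalizes hb) (fun h0 => h.ne_zero (conjL_eq_zero h0)) (finrank_conjL b s).le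

theorem conjL_mem_cl' {b : LinearMap.GeneralLinearGroup (ZMod p) M} (hb : Nz G b) {s x : M →ₗ[ZMod p] M}
    (hx : x ∈ cl G s) : conjL b x ∈ cl G (conjL b s) := by
  refine ⟨hx.1.conj_of_normalizes hb, ?_, ?_⟩
  · rw [conjL_apply, conjL_apply, ker_conj, ker_conj]
    exact Submodule.map_mono hx.2.1
  · rw [conjL_apply, conjL_apply, range_conj, range_conj]
    exact Submodule.map_mono hx.2.2

theorem conjL_image_cl {b : LinearMap.GeneralLinearGroup (ZMod p) M} (hb : Nz G b) (hb' : Nz G b⁻¹)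
    (s : M →ₗ[ZMod p] M) : (fun x => conjL b x) '' cl G s = cl G (conjL b s) := by
  ext y
  constructor
  · rintro ⟨x, hx, rfl⟩
    exact conjL_mem_cl' hb hx
  · intro hy
    have h := conjL_mem_cl' hb' hy
    rw [conjL_conjL, inv_mul_cancel, conjL_id] at h
    exact ⟨_, h, by simp only; rw [conjL_conjL, mul_inv_cancel, conjL_id]⟩

theorem same_conjL {s t : M →ₗ[ZMod p] M} (h : Same s t) (b : LinearMap.GeneralLinearGroup (ZMod p) M) :
    Same (conjL b s) (conjL b t) := by
  constructor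
  · rw [conjL_apply, conjL_apply, ker_conj, ker_conj, h.1]
  · rw [conjL_apply, conjL_apply, range_conj, range_conj, h.2]

theorem nz_of_mem {g : LinearMap.GeneralLinearGroup (ZMod p) M} (hg : g ∈ G) : Nz G g :=
  fun _ hx => G.mul_mem (G.mul_mem hg hx) (G.inv_mem hg)

theorem solvable_of_exp {Γ : Type*} [Group Γ] (U : Subgroup Γ) [Finite ↥U] (h : ∀ u ∈ U, u ^ p = 1) :
    Group.IsSolvable ↥U := by
  have hp : IsPGroup p ↥U := by
    intro u
    refine ⟨1, ?_⟩
    rw [pow_one]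
    exact Subtype.ext (h u u.2)
  have := hp.isNilpotent
  infer_instance

section fin

variable [Finite M] [FiniteDimensional (ZMod p) M]

/-- conjugation by `b` maps the flag stabiliser of `s` to itself when `b` fixes the class of `s` -/
theorem conj_flg {s : M →ₗ[ZMod p] M} (hs : s * s = 0) {b : LinearMap.GeneralLinearGroup (ZMod p) M}
    (hb : Same (conjL b s) s) {u : LinearMap.GeneralLinearGroup (ZMod p) M} (hu : u ∈ flg s hs) :
    b * u * b⁻¹ ∈ flg s hs := by
  obtain ⟨h1, h2, h3⟩ := mem_flagStab.1 hu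
  have hr : LinearMap.range s = (LinearMap.range s).map (b : M →ₗ[ZMod p] M) := by
    conv_lhs => rw [← hb.2, conjL_apply, range_conj]
  have hk' : LinearMap.ker s = (LinearMap.ker s).map (b : M →ₗ[ZMod p] M) := by
    conv_lhs => rw [← hb.1, conjL_apply, ker_conj]
  have hbb : ∀ m, (b : M →ₗ[ZMod p] M) (((b⁻¹ : LinearMap.GeneralLinearGroup (ZMod p) M) : M →ₗ[ZMod p] M) m) = m := by
    intro m
    rw [← Module.End.mul_apply, Units.mul_inv, Module.End.one_apply]
  have hbb' : ∀ m, ((b⁻¹ : LinearMap.GeneralLinearGroup (ZMod p) M) : M →ₗ[ZMod p] M) ((b : M →ₗ[ZMod p] M) m) = m := by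
    intro m
    rw [← Module.End.mul_apply, Units.inv_mul, Module.End.one_apply]
  have key : ∀ m, ((b * u * b⁻¹ : LinearMap.GeneralLinearGroup (ZMod p) M) : M →ₗ[ZMod p] M) m - m
      = (b : M →ₗ[ZMod p] M) ((u : M →ₗ[ZMod p] M) (((b⁻¹ : LinearMap.GeneralLinearGroup (ZMod p) M) : M →ₗ[ZMod p] M) m)
        - ((b⁻¹ : LinearMap.GeneralLinearGroup (ZMod p) M) : M →ₗ[ZMod p] M) m) := by
    intro m
    rw [Units.val_mul, Units.val_mul, Module.End.mul_apply, Module.End.mul_apply, map_sub, hbb]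
  refine mem_flagStab.2 ⟨fun m => ?_, fun m hm => ?_, fun m hm => ?_⟩
  · rw [key, hk']
    exact ⟨_, h1 _, rfl⟩
  · rw [key]
    rw [hk'] at hm
    obtain ⟨m', hm', rfl⟩ := hm
    rw [hbb', hr]
    exact ⟨_, h2 _ hm', rfl⟩
  · rw [hr] at hm
    obtain ⟨m', hm', rfl⟩ := hm
    rw [Units.val_mul, Units.val_mul, Module.End.mul_apply, Module.End.mul_apply, hbb', h3 _ hm']

/-- **A coprime operator group fixing the class of `s` fixes the class of some inverse partner.** -/
theorem fix_opp (hp5 : 5 ≤ p) {s : M →ₗ[ZMod p] M} (hs : IsMin G s) (hC : Core G)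
    (hopp : ∃ t, IsMin G t ∧ H742.Inv s t) (B : Subgroup (LinearMap.GeneralLinearGroup (ZMod p) M))
    (hBG : ∀ b ∈ B, Nz G b) (hcop : (Nat.card ↥B).Coprime (Nat.card ↥G)) (hBs : ∀ b ∈ B, conjL b s ∈ cl G s) :
    ∃ t, IsMin G t ∧ H742.Inv s t ∧ ∀ b ∈ B, conjL b t ∈ cl G t := by
  have hsame : ∀ b ∈ B, Same (conjL b s) s := fun b hb =>
    same_of_mem_cl hs (hBs b hb) (fun h0 => hs.ne_zero (conjL_eq_zero h0))
  let T : Set (Set (M →ₗ[ZMod p] M)) := {C | ∃ t, IsMin G t ∧ H742.Inv s t ∧ C = cl G t}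
  obtain ⟨C, ⟨t, ht, hi, rfl⟩, hfix⟩ := glaub (Γ := LinearMap.GeneralLinearGroup (ZMod p) M)
    (fun g (C : Set (M →ₗ[ZMod p] M)) => (fun x => conjL g x) '' C)
    (fun C => by
      simp only [conjL_id, Set.image_id'])
    (fun g h C => by
      simp only [Set.image_image, conjL_conjL])
    (G ⊓ flg s hs.sq) B
    (fun b hb u hu => ⟨hBG b hb u hu.1, conj_flg hs.sq (hsame b hb) hu.2⟩)
    (hcop.coprime_dvd_right (Subgroup.card_dvd_of_le inf_le_left))
    (Or.inr (solvable_of_exp _ (fun u hu => flagStab_pow (by omega) hu.2)))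
    T
    (by
      obtain ⟨t, ht, hi⟩ := hopp
      exact ⟨_, t, ht, hi, rfl⟩)
    (by
      rintro b hb _ ⟨t, ht, hi, rfl⟩
      rw [conjL_image_cl (hBG b hb) (hBG _ (B.inv_mem hb))]
      have hb' := isMin_conjL (hBG b hb) ht
      have hbs := isMin_conjL (hBG b hb) hs
      have hn := (inv_conjL hi b).not_isNilpotent hbs.ne_zero
      rw [hC.not_isNilpotent_congr hbs hb' hs hb' (hsame b hb) (Same.refl _)] at hn
      obtain ⟨t', ht', hts', hi'⟩ := hC.inv hs hb' hn
      exact ⟨t', ht', hi', (cl_congr hts').symm⟩)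
    (by
      rintro u hu _ ⟨t, ht, hi, rfl⟩
      rw [conjL_image_cl (nz_of_mem hu.1) (nz_of_mem (G.inv_mem hu.1))]
      refine ⟨_, isMin_conjL (nz_of_mem hu.1) ht, ?_, rfl⟩
      have := inv_conjL hi u
      rwa [conjL_flg hu.2] at this)
    (by
      rintro _ ⟨t, ht, hi, rfl⟩ _ ⟨t', ht', hi', rfl⟩
      obtain ⟨g, hg, he⟩ := flg_trans hp5 hi hi' hs.ne_zero hs.1 ht.1 ht'.1
      refine ⟨g, hg, ?_⟩
      rw [conjL_image_cl (nz_of_mem hg.1) (nz_of_mem (G.inv_mem hg.1)), he])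
  refine ⟨t, ht, hi, fun b hb => ?_⟩
  rw [← hfix b hb]
  exact ⟨t, self_mem_cl ht.1, rfl⟩

end fin

end Cfsg.Agent.H317.KP
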