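import Cfsg.Agent.H317.KP.Comp
import Cfsg.Agent.H317.KP.Norm
import Cfsg.Agent.H742.CoreOf

/-!
# Key proposition: a coprime operator group on a linear group with a quadratic element centralises
# a central quotient of `SL₂(p)`
-/

set_option autoImplicit false

namespace Cfsg.Agent.H317.KP

open Cfsg Cfsg.Agent.H740 Cfsg.Agent.H742 Cfsg.Agent.H731

variable {p : ℕ} [Fact p.Prime] {M : Type*} [AddCommGroup M] [Module (ZMod p) M]

theorem exists_minimal [Finite M] {G : Subgroup (LinearMap.GeneralLinearGroup (ZMod p) M)}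
    {σ : LinearMap.GeneralLinearGroup (ZMod p) M} (hσ : σ ∈ quadraticElements G) :
    ∃ τ, τ ∈ minimalQuadraticElements G := by
  obtain ⟨τ, hτ, hmin⟩ := Set.exists_min_image (quadraticElements G) commutatorRank (Set.toFinite _) ⟨σ, hσ⟩
  exact ⟨τ, hτ, hmin⟩

theorem key [Finite M] (hp5 : 5 ≤ p) (G A0 : Subgroup (LinearMap.GeneralLinearGroup (ZMod p) M))
    (hA0 : ∀ a ∈ A0, ∀ g ∈ G, a * g * a⁻¹ ∈ G) (hcop : (Nat.card ↥A0).Coprime (Nat.card ↥G))
    (hno : NoUnip G) {σ : LinearMap.GeneralLinearGroup (ZMod p) M} (hσ : σ ∈ quadraticElements G) :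
    ∃ Ψ : Matrix.SpecialLinearGroup (Fin 2) (ZMod p) →* LinearMap.GeneralLinearGroup (ZMod p) M,
      (∀ g, Ψ g ∈ G) ∧ (∀ a ∈ A0, ∀ g, a * Ψ g * a⁻¹ = Ψ g) ∧ Ψ.ker ≤ Subgroup.center _ := by
  have hfd : FiniteDimensional (ZMod p) M := inferInstance
  have hC : Core G := core (by
    rw [ZMod.ringChar_zmod_n]; omega) (by
    rw [Nat.card_zmod]; omega)
  have hO := hasOpp_of_noUnip hC hno
  obtain ⟨τ, hτ⟩ := exists_minimal hσ
  obtain ⟨A1, x, y, h, hx0, hG, hcent, hcomm⟩ := exists_pair hp5 hC hO A0 hA0 hcop hτ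
  refine norm_hom A0 A1 G hA0 h.slHom ?_ hG (fun a _ ha g => hcent a ha g) (fun a ha hna g g' => hcomm a ha hna g g')
  exact (MonoidHom.ker_eq_bot_iff _).1 (h.slHom_ker hx0)

end Cfsg.Agent.H317.KP
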