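import Cfsg.Agent.H317.KP.Key
import Cfsg.Agent.Lib.Involves
import Cfsg.Agent.PLocal.PConstrained
import Cfsg.Agent.S0205

/-!
# A group acting on an elementary abelian `p`-group with a quadratic element, and a coprime operator group
-/

set_option autoImplicit false

namespace Cfsg.Agent.H317.KP

open Cfsg Cfsg.Agent.H740 Cfsg.Agent.H742 Cfsg.Agent.H731

/-! ### lifting fixed points -/

theorem solvable_or {A B : Type*} [Group A] [Group B] [Finite A] [Finite B] (h : (Nat.card A).Coprime (Nat.card B)) :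
    Group.IsSolvable A ∨ Group.IsSolvable B := by
  by_cases hA : Odd (Nat.card A)
  · exact Or.inl (Cfsg.Agent.S0205.result hA)
  · right
    apply Cfsg.Agent.S0205.result
    rw [Nat.not_odd_iff_even, even_iff_two_dvd] at hA
    rw [← Nat.not_even_iff_odd, even_iff_two_dvd]
    intro hB
    have := Nat.dvd_gcd hA hB
    rw [h] at this
    norm_num at this

/-- Fixed points of coprime operators lift along a homomorphism (ambient form). -/
theorem lift_fixed {Γ Δ : Type*} [Group Γ] [Group Δ] (φ : Γ →* Δ) (N B : Subgroup Γ) [Finite ↥N] [Finite ↥B]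
    (hn : ∀ b ∈ B, ∀ u ∈ N, b * u * b⁻¹ ∈ N) (hcop : (Nat.card ↥B).Coprime (Nat.card ↥N)) {n : Γ} (hnN : n ∈ N)
    (hfix : ∀ b ∈ B, φ b * φ n * (φ b)⁻¹ = φ n) :
    ∃ c ∈ N, (∀ b ∈ B, b * c = c * b) ∧ φ c = φ n := by
  classical
  let aBU : MulDistribMulAction ↥B ↥N :=
    { smul := fun b u => ⟨(b : Γ) * u * (b : Γ)⁻¹, hn b b.2 u u.2⟩
      one_smul := fun u => Subtype.ext (by change (1 : Γ) * u * (1 : Γ)⁻¹ = u; simp)
      mul_smul := fun b c u => Subtype.ext (by
        change ((b : Γ) * c) * u * ((b : Γ) * c)⁻¹ = b * (c * u * (c : Γ)⁻¹) * (b : Γ)⁻¹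
        group)
      smul_mul := fun b u v => Subtype.ext (by
        change (b : Γ) * (u * v) * (b : Γ)⁻¹ = (b * u * (b : Γ)⁻¹) * (b * v * (b : Γ)⁻¹)
        group)
      smul_one := fun b => Subtype.ext (by change (b : Γ) * 1 * (b : Γ)⁻¹ = 1; simp) }
  have hs : ∀ (b : ↥B) (u : ↥N), ((b • u : ↥N) : Γ) = (b : Γ) * u * (b : Γ)⁻¹ := fun _ _ => rfl
  obtain ⟨c, hc, hnc⟩ := Cfsg.Agent.H532.CopAct.exists_fixed_lift (A := ↥B) (G := ↥N) hcop (solvable_or hcop)
    (φ.comp N.subtype).ker
    (by
      intro b x hx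
      rw [MonoidHom.mem_ker] at hx ⊢
      change φ ((b : Γ) * x * (b : Γ)⁻¹) = 1
      have hx' : φ (x : Γ) = 1 := hx
      rw [map_mul, map_mul, hx', mul_one, ← map_mul, mul_inv_cancel, map_one])
    ⟨n, hnN⟩
    (by
      intro b
      rw [MonoidHom.mem_ker]
      change φ (n⁻¹ * ((b : Γ) * n * (b : Γ)⁻¹)) = 1
      have := hfix b b.2
      rw [map_mul, map_mul, map_mul, map_inv, map_inv, this, inv_mul_cancel])
  refine ⟨c, c.2, fun b hb => ?_, ?_⟩
  · have h1 := congrArg Subtype.val (hc ⟨b, hb⟩)
    rw [hs] at h1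
    exact mul_inv_eq_iff_eq_mul.1 h1
  · rw [MonoidHom.mem_ker] at hnc
    have h2 : φ (n⁻¹ * (c : Γ)) = 1 := hnc
    rw [map_mul, map_inv, inv_mul_eq_one] at h2
    exact h2.symm

/-! ### the linear representation -/

section lin

variable {p : ℕ} {W : Type*} [CommGroup W]

/-- the module structure on an elementary abelian group -/
@[reducible] def eaModule (hW : ∀ x : W, x ^ p = 1) : Module (ZMod p) (Additive W) :=
  AddCommGroup.zmodModule (n := p) (fun x => by
    change Additive.ofMul ((Additive.toMul x) ^ p) = 0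
    rw [hW]; rfl)

/-- automorphisms as linear maps -/
def linHom [Module (ZMod p) (Additive W)] : MulAut W →* LinearMap.GeneralLinearGroup (ZMod p) (Additive W) where
  toFun e :=
    { val := (MulEquiv.toAdditive e).toAddMonoidHom.toZModLinearMap p
      inv := (MulEquiv.toAdditive e⁻¹).toAddMonoidHom.toZModLinearMap p
      val_inv := by
        ext w
        change Additive.ofMul (e (e⁻¹ (Additive.toMul w))) = w
        rw [MulAut.apply_inv_self]; rfl
      inv_val := by
        ext w
        change Additive.ofMul (e⁻¹ (e (Additive.toMul w))) = w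
        rw [MulAut.inv_apply_self]; rfl }
  map_one' := by
    apply Units.ext
    ext w
    rfl
  map_mul' e f := by
    apply Units.ext
    ext w
    rfl

theorem linHom_apply [Module (ZMod p) (Additive W)] (e : MulAut W) (w : W) :
    ((linHom (p := p) e : LinearMap.GeneralLinearGroup (ZMod p) (Additive W)) :
      Additive W →ₗ[ZMod p] Additive W) (Additive.ofMul w) = Additive.ofMul (e w) := rfl

theorem linHom_eq_one_iff [Module (ZMod p) (Additive W)] {e : MulAut W} :
    (linHom (p := p) e : LinearMap.GeneralLinearGroup (ZMod p) (Additive W)) = 1 ↔ e = 1 := by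
  constructor
  · intro h
    ext w
    have := congrArg (fun g : LinearMap.GeneralLinearGroup (ZMod p) (Additive W) =>
      (g : Additive W →ₗ[ZMod p] Additive W) (Additive.ofMul w)) h
    simp only [linHom_apply] at this
    exact this
  · rintro rfl
    exact map_one _

end lin

/-! ### unipotent elements in characteristic `p` -/

section uni

variable {p : ℕ} [Fact p.Prime] {M : Type*} [AddCommGroup M] [Module (ZMod p) M]

theorem one_add_pow {n : M →ₗ[ZMod p] M} (h : n * n = 0) (k : ℕ) : (1 + n) ^ k = 1 + (k : ZMod p) • n := by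
  induction k with
  | zero => simp
  | succ k ih =>
    rw [pow_succ, ih, Nat.cast_succ, add_smul, one_smul]
    rw [mul_add, mul_one, add_mul, one_mul, smul_mul_assoc, h, smul_zero, add_zero]
    abel

theorem pow_p_of_quad {σ : LinearMap.GeneralLinearGroup (ZMod p) M}
    (h : ((σ : M →ₗ[ZMod p] M) - 1) * ((σ : M →ₗ[ZMod p] M) - 1) = 0) : σ ^ p = 1 := by
  apply Units.ext
  rw [Units.val_pow_eq_pow_val]
  have := one_add_pow h p
  rw [add_sub_cancel] at this
  rw [this, CharP.cast_eq_zero, zero_smul, add_zero, Units.val_one]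

theorem charP_endM [Nontrivial M] : CharP (Module.End (ZMod p) M) p :=
  charP_of_injective_algebraMap (FaithfulSMul.algebraMap_injective (ZMod p) (Module.End (ZMod p) M)) p

theorem isPGroup_of_unip [Nontrivial M] {U : Subgroup (LinearMap.GeneralLinearGroup (ZMod p) M)}
    (hU : IsUnipotentOn U) : IsPGroup p ↥U := by
  have := charP_endM (p := p) (M := M)
  rintro ⟨u, hu⟩
  obtain ⟨n, hn⟩ := isUnipotentOn_def.1 hU
  have h1 := hn (List.replicate n u) (fun g hg => by rw [List.eq_of_mem_replicate hg]; exact hu) (by simp)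
  rw [List.map_replicate, List.prod_replicate] at h1
  refine ⟨n, ?_⟩
  apply Subtype.ext
  apply Units.ext
  change ((u ^ p ^ n : LinearMap.GeneralLinearGroup (ZMod p) M) : Module.End (ZMod p) M) = 1
  rw [Units.val_pow_eq_pow_val]
  have h2 := sub_pow_char_pow_of_commute (p := p) (n := n) (Commute.one_right (u : Module.End (ZMod p) M))
  rw [one_pow] at h2
  have h3 : ((u : Module.End (ZMod p) M) - 1) ^ p ^ n = 0 := by
    refine pow_eq_zero_of_le ?_ h1
    exact (Nat.lt_pow_self (Fact.out : p.Prime).one_lt).le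
  rw [h3] at h2
  exact (sub_eq_zero.1 h2.symm)

end uni

end Cfsg.Agent.H317.KP
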