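import Cfsg.Agent.H317.KP.Red1

/-!
# A quadratic element outside the kernel gives `PSL₂(p)` in the fixed points of a coprime operator group
-/

set_option autoImplicit false

namespace Cfsg.Agent.H317.KP

open Cfsg Cfsg.Agent.H740 Cfsg.Agent.H742 Cfsg.Agent.H731 Cfsg.Agent.Lib.Involves

universe u v

theorem mem_of_pow_mem {Δ : Type*} [Group Δ] {H : Subgroup Δ} {σ : Δ} {m p : ℕ} (hc : m.Coprime p)
    (hm : σ ^ m ∈ H) (hp : σ ^ p = 1) : σ ∈ H := by
  obtain ⟨u, v, huv⟩ := Nat.isCoprime_iff_coprime.2 hc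
  have h1 : σ = (σ ^ m) ^ u * (σ ^ p) ^ v := by
    calc σ = σ ^ (u * (m : ℤ) + v * (p : ℤ)) := by rw [huv, zpow_one]
      _ = (σ ^ m) ^ u * (σ ^ p) ^ v := by
        rw [zpow_add, mul_comm u, mul_comm v, zpow_mul, zpow_mul, zpow_natCast, zpow_natCast]
  rw [h1, hp, one_zpow, mul_one]
  exact H.zpow_mem hm u

variable {p : ℕ} [Fact p.Prime]

/-- `O_p` of the image of a normal subgroup is normalised by the whole image. -/
theorem conj_mem_pCore_map {Γ Δ : Type*} [Group Γ] [Group Δ] (φ : Γ →* Δ) (N : Subgroup Γ) [N.Normal] (g : Γ)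
    {y : Δ} (hy : y ∈ (pCore p ↥(N.map φ)).map (N.map φ).subtype) :
    φ g * y * (φ g)⁻¹ ∈ (pCore p ↥(N.map φ)).map (N.map φ).subtype := by
  set G' := N.map φ with hG'
  have hn : ∀ (g : Γ), ∀ z ∈ G', φ g * z * (φ g)⁻¹ ∈ G' := by
    rintro g _ ⟨n, hn, rfl⟩
    exact ⟨g * n * g⁻¹, (inferInstance : N.Normal).conj_mem n hn g, by simp⟩
  let X : Subgroup ↥G' := ((((pCore p ↥G').map G'.subtype).map (MulAut.conj (φ g)).toMonoidHom)).subgroupOf G'
  have hXp : IsPGroup p ↥X := by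
    apply IsPGroup.comap_subtype
    exact ((Cfsg.Agent.PLocal.PConstrained.isPGroup_pCore p ↥G').map _).map _
  have hXn : X.Normal := by
    refine ⟨?_⟩
    rintro ⟨x, hx⟩ hxX ⟨h, hh⟩
    rw [Subgroup.mem_subgroupOf] at hxX ⊢
    obtain ⟨_, ⟨z, hz, rfl⟩, hzx⟩ := hxX
    have hzx' : φ g * (z : Δ) * (φ g)⁻¹ = x := hzx
    have hh' : (φ g)⁻¹ * h * φ g ∈ G' := by
      have := hn g⁻¹ h hh
      rwa [map_inv, inv_inv] at this
    refine ⟨_, ⟨⟨(φ g)⁻¹ * h * φ g, hh'⟩ * z * (⟨(φ g)⁻¹ * h * φ g, hh'⟩ : ↥G')⁻¹, ?_, rfl⟩, ?_⟩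
    · exact (pCore_normal p ↥G').conj_mem z hz _
    · change φ g * (((φ g)⁻¹ * h * φ g) * (z : Δ) * ((φ g)⁻¹ * h * φ g)⁻¹) * (φ g)⁻¹ = h * x * h⁻¹
      rw [← hzx']
      group
  have hX := Cfsg.Agent.PLocal.PConstrained.le_pCore hXn hXp
  obtain ⟨z, hz, rfl⟩ := hy
  have hmem : φ g * (z : Δ) * (φ g)⁻¹ ∈ G' := hn g _ z.2
  refine ⟨⟨_, hmem⟩, hX ?_, rfl⟩
  rw [Subgroup.mem_subgroupOf]
  exact ⟨_, ⟨z, hz, rfl⟩, rfl⟩

theorem involves_of_quadratic_aux (hp5 : 5 ≤ p) {Γ : Type*} {W : Type*} [Group Γ] [Finite Γ] [CommGroup W] [Finite W]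
    [Module (ZMod p) (Additive W)] (α : Γ →* MulAut W) (N B : Subgroup Γ) [N.Normal] (hidx : ¬ p ∣ N.index)
    (hcop : (Nat.card ↥B).Coprime (Nat.card ↥N))
    (hmin : ∀ R : Subgroup Γ, R.Normal → (∀ g ∈ R, ∃ k : ℕ, (α g) ^ p ^ k = 1) → ∀ g ∈ R, α g = 1)
    (x : Γ) (hx : ∀ w, α x (w⁻¹ * α x w) = w⁻¹ * α x w) (hx1 : α x ≠ 1) {Y : Type*} [Group Y]
    (π : Matrix.SpecialLinearGroup (Fin 2) (ZMod p) →* Y) (hπ : Function.Surjective π)
    (hπk : Subgroup.center _ ≤ π.ker) :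
    Involves ↥(N ⊓ Subgroup.centralizer (B : Set Γ) : Subgroup Γ) Y := by
  have hWnt : Nontrivial (Additive W) := by
    by_contra hnt
    rw [not_nontrivial_iff_subsingleton] at hnt
    apply hx1
    ext w
    exact Additive.ofMul.injective (Subsingleton.elim _ _)
  let φ : Γ →* LinearMap.GeneralLinearGroup (ZMod p) (Additive W) := linHom.comp α
  have hφ1 : ∀ g, φ g = 1 ↔ α g = 1 := fun g => linHom_eq_one_iff
  set σ := φ x with hσ
  have hσa : ∀ w : W, ((σ : Additive W →ₗ[ZMod p] Additive W) - 1) (Additive.ofMul w) =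
      Additive.ofMul (w⁻¹ * α x w) := by
    intro w
    rw [LinearMap.sub_apply, Module.End.one_apply]
    change Additive.ofMul (α x w) - Additive.ofMul w = _
    rw [← ofMul_div, div_eq_mul_inv, mul_comm]
  have hσ2 : ((σ : Additive W →ₗ[ZMod p] Additive W) - 1) * ((σ : Additive W →ₗ[ZMod p] Additive W) - 1) = 0 := by
    apply LinearMap.ext
    intro w
    rw [Module.End.mul_apply]
    have h1 := hσa (Additive.toMul w)
    rw [ofMul_toMul] at h1
    rw [h1, hσa, hx, inv_mul_cancel, ofMul_one, LinearMap.zero_apply]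
  have hσ1 : σ ≠ 1 := fun h => hx1 ((hφ1 x).1 h)
  have hσp : σ ^ p = 1 := pow_p_of_quad hσ2
  have hnN : ∀ (g : Γ), ∀ z ∈ N.map φ, φ g * z * (φ g)⁻¹ ∈ N.map φ := by
    rintro g _ ⟨n, hn, rfl⟩
    exact ⟨g * n * g⁻¹, (inferInstance : N.Normal).conj_mem n hn g, by simp⟩
  have hσG : σ ∈ N.map φ := by
    refine mem_of_pow_mem (m := N.index) (p := p) ?_ ?_ hσp
    · exact ((Nat.Prime.coprime_iff_not_dvd Fact.out).2 hidx).symm
    · exact ⟨x ^ N.index, N.pow_index_mem x, by rw [map_pow]⟩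
  have hσq : σ ∈ quadraticElements (N.map φ) := by
    refine ⟨hσG, ⟨hσ2, fun h0 => hσ1 (Units.ext (sub_eq_zero.1 h0))⟩, ?_⟩
    rintro τ ⟨c, hc⟩
    have h1 : τ = σ ^ c.val := by
      apply Units.ext
      have h2 := one_add_pow hσ2 c.val
      rw [add_sub_cancel] at h2
      rw [Units.val_pow_eq_pow_val, h2, hc, ZMod.natCast_zmod_val]
    rw [h1]
    exact (N.map φ).pow_mem hσG _
  -- no unipotent normal subgroups
  set Pc := (pCore p ↥(N.map φ)).map (N.map φ).subtype with hPc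
  have hPcp : IsPGroup p ↥Pc := (Cfsg.Agent.PLocal.PConstrained.isPGroup_pCore p ↥(N.map φ)).map _
  have hR := hmin (Pc.comap φ) ⟨fun r hr g => by
    rw [Subgroup.mem_comap] at hr ⊢
    rw [map_mul, map_mul, map_inv]
    exact conj_mem_pCore_map φ N g hr⟩ (fun g hg => by
      obtain ⟨k, hk⟩ := hPcp ⟨φ g, hg⟩
      refine ⟨k, ?_⟩
      rw [← map_pow, ← hφ1, map_pow]
      exact congrArg Subtype.val hk)
  have hPcbot : Pc = ⊥ := by
    rw [Subgroup.eq_bot_iff_forall]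
    rintro y hy
    have hyG : y ∈ N.map φ := (Subgroup.map_subtype_le _) hy
    obtain ⟨n, hn, rfl⟩ := hyG
    exact (hφ1 n).2 (hR n hy)
  have hno : NoUnip (N.map φ) := by
    intro U hUG hUn hU
    have hUp := isPGroup_of_unip hU
    have h1 : U.subgroupOf (N.map φ) ≤ pCore p ↥(N.map φ) := by
      apply Cfsg.Agent.PLocal.PConstrained.le_pCore
      · refine ⟨?_⟩
        rintro ⟨u, hu⟩ huU ⟨g, hg⟩
        rw [Subgroup.mem_subgroupOf] at huU ⊢
        change g * u * g⁻¹ ∈ U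
        rw [← hUn g hg]
        exact conj_mem_conjBy huU g
      · exact hUp.comap_subtype
    rw [eq_bot_iff, ← hPcbot]
    intro u hu
    exact ⟨⟨u, hUG hu⟩, h1 (by rw [Subgroup.mem_subgroupOf]; exact hu), rfl⟩
  obtain ⟨Ψ, hΨG, hΨc, hΨk⟩ := key hp5 (N.map φ) (B.map φ)
    (by
      rintro _ ⟨b, hb, rfl⟩ g hg
      exact hnN b g hg)
    ((hcop.coprime_dvd_left (Cfsg.Agent.PLocal.PConstrained.card_map_dvd φ B)).coprime_dvd_right
      (Cfsg.Agent.PLocal.PConstrained.card_map_dvd φ N)) hno hσq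
  set C : Subgroup Γ := N ⊓ Subgroup.centralizer (B : Set Γ) with hC
  have hΨC : ∀ g, Ψ g ∈ C.map φ := by
    intro g
    obtain ⟨n, hn, hng⟩ := hΨG g
    obtain ⟨c, hcN, hcB, hcn⟩ := lift_fixed φ N B
      (fun b _ u hu => (inferInstance : N.Normal).conj_mem u hu b) hcop hn
      (fun b hb => by rw [hng]; exact hΨc _ ⟨b, hb, rfl⟩ g)
    refine ⟨c, Subgroup.mem_inf.2 ⟨hcN, Subgroup.mem_centralizer_iff.2 hcB⟩, hcn.trans hng⟩
  have h1 : Involves ↥(C.map φ) Y := by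
    refine of_ker_le (Ψ.codRestrict (C.map φ) hΨC) π hπ ?_
    refine le_trans ?_ hπk
    refine le_trans ?_ hΨk
    intro g hg
    rw [MonoidHom.mem_ker] at hg ⊢
    exact congrArg Subtype.val hg
  exact trans (of_surjective (φ.subgroupMap C) (φ.subgroupMap_surjective C)) h1

theorem involves_of_quadratic (hp5 : 5 ≤ p) {Γ : Type*} {W : Type*} [Group Γ] [Finite Γ] [CommGroup W] [Finite W]
    (hW : ∀ x : W, x ^ p = 1) (α : Γ →* MulAut W) (N B : Subgroup Γ) [N.Normal] (hidx : ¬ p ∣ N.index)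
    (hcop : (Nat.card ↥B).Coprime (Nat.card ↥N))
    (hmin : ∀ R : Subgroup Γ, R.Normal → (∀ g ∈ R, ∃ k : ℕ, (α g) ^ p ^ k = 1) → ∀ g ∈ R, α g = 1)
    (x : Γ) (hx : ∀ w, α x (w⁻¹ * α x w) = w⁻¹ * α x w) (hx1 : α x ≠ 1) {Y : Type*} [Group Y]
    (π : Matrix.SpecialLinearGroup (Fin 2) (ZMod p) →* Y) (hπ : Function.Surjective π)
    (hπk : Subgroup.center _ ≤ π.ker) :
    Involves ↥(N ⊓ Subgroup.centralizer (B : Set Γ) : Subgroup Γ) Y := by
  letI : Module (ZMod p) (Additive W) := eaModule hW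
  exact involves_of_quadratic_aux hp5 α N B hidx hcop hmin x hx hx1 π hπ hπk

end Cfsg.Agent.H317.KP
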