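import Cfsg.Agent.H317.KP.Red2
import Cfsg.Agent.PLocal.ChiefReduction
import Cfsg.Agent.PLocal.QdFree

/-!
# `p`-stability when the fixed points of a coprime operator group do not involve `PSL₂(p)`
-/

set_option autoImplicit false

namespace Cfsg.Agent.H317.KP

open Cfsg Cfsg.Agent.Lib.Involves

theorem conjNormal_eq_one_iff {L : Type*} [Group L] {V : Subgroup L} [V.Normal] {g : L} :
    (MulAut.conjNormal g : MulAut V) = 1 ↔ g ∈ Subgroup.centralizer (V : Set L) := by
  rw [Subgroup.mem_centralizer_iff]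
  constructor
  · intro h v hv
    have h1 := congrArg (fun f : MulAut V => ((f ⟨v, hv⟩ : V) : L)) h
    simp only [MulAut.conjNormal_apply, MulAut.one_apply] at h1
    exact (mul_inv_eq_iff_eq_mul.1 h1).symm
  · intro h
    ext v
    rw [MulAut.conjNormal_apply, MulAut.one_apply, ← h v v.2, mul_inv_cancel_right]

theorem stable_of_not_involved {p : ℕ} [Fact p.Prime] (hp5 : 5 ≤ p) {Γ : Type*} [Group Γ] [Finite Γ]
    (N B : Subgroup Γ) [N.Normal] (hidx : ¬ p ∣ N.index)
    (hcop : (Nat.card ↥B).Coprime (Nat.card ↥N)) {Y : Type*} [Group Y]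
    (π : Matrix.SpecialLinearGroup (Fin 2) (ZMod p) →* Y) (hπ : Function.Surjective π)
    (hπk : Subgroup.center _ ≤ π.ker)
    (hni : ¬ Involves ↥(N ⊓ Subgroup.centralizer (B : Set Γ) : Subgroup Γ) Y)
    (P : Subgroup Γ) [P.Normal] (hP : IsPGroup p P) : IsPStableOn p P := by
  intro a ha
  by_contra hcon
  apply hni
  obtain ⟨A₁, B₁, hA, hB, hlt, hAP, hmin, hx⟩ :=
    Cfsg.Agent.PLocal.ChiefReduction.exists_chief_of_notMem_pCore P hP a hcon
  let f := QuotientGroup.mk' B₁
  have hf : Function.Surjective f := QuotientGroup.mk'_surjective B₁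
  let V : Subgroup (Γ ⧸ B₁) := A₁.map f
  have hVn : V.Normal := hA.map f hf
  have hVp : IsPGroup p V := (hP.to_le hAP).map f
  have hVmin : ∀ N' : Subgroup (Γ ⧸ B₁), N'.Normal → N' ≤ V → N' = ⊥ ∨ N' = V := by
    intro N' hN' hle
    have h1 : (N'.comap f).Normal := hN'.comap f
    have h2 : B₁ ≤ N'.comap f := by
      intro b hb
      rw [Subgroup.mem_comap, show f b = 1 from (QuotientGroup.eq_one_iff b).2 hb]
      exact N'.one_mem
    have h3 : N'.comap f ≤ A₁ := by
      intro y hy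
      obtain ⟨z, hz, hzy⟩ := hle hy
      have h4 : z⁻¹ * y ∈ B₁ := QuotientGroup.eq.1 hzy
      have h5 : y = z * (z⁻¹ * y) := by group
      rw [h5]
      exact A₁.mul_mem hz (hlt.le h4)
    have h6 : N' = (N'.comap f).map f := (Subgroup.map_comap_eq_self_of_surjective hf N').symm
    rcases hmin _ h1 h2 h3 with h | h
    · left
      rw [h6, h, eq_bot_iff]
      rintro _ ⟨b, hb, rfl⟩
      exact (QuotientGroup.eq_one_iff b).2 hb
    · right
      rw [h6, h]
  have hVea := Cfsg.Agent.PLocal.ChiefReduction.isElementaryAbelian_of_minimal hVn hVp hVmin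
  have hcomm : ∀ x y : ↥V, x * y = y * x := fun x y => hVea.1.is_comm.comm x y
  letI : CommGroup ↥V := { (inferInstance : Group ↥V) with mul_comm := hcomm }
  let α : Γ →* MulAut ↥V := (MulAut.conjNormal (H := V)).comp f
  have hα1 : ∀ g, α g = 1 ↔ f g ∈ Subgroup.centralizer (V : Set (Γ ⧸ B₁)) := fun g => conjNormal_eq_one_iff
  refine involves_of_quadratic hp5 (W := ↥V) (fun x => Subtype.ext (hVea.2 x x.2)) α N B hidx hcop ?_ a ?_ ?_
    π hπ hπk
  · intro R hR hRk g hg
    rw [hα1]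
    have h1 := Cfsg.Agent.PLocal.ChiefReduction.le_centralizer_of_minimal hVn hVp hVmin (R := R.map f)
      (hR.map f hf) (by
        rintro _ ⟨r, hr, rfl⟩
        obtain ⟨k, hk⟩ := hRk r hr
        refine ⟨k, ?_⟩
        rw [← map_pow, ← hα1, map_pow]
        exact hk)
    exact h1 ⟨g, hg, rfl⟩
  · have hq : ⁅⁅V, Subgroup.zpowers (f a)⁆, Subgroup.zpowers (f a)⁆ = ⊥ := by
      rw [← MonoidHom.map_zpowers, ← Subgroup.map_commutator, ← Subgroup.map_commutator]
      have h1 : ⁅⁅A₁, Subgroup.zpowers a⁆, Subgroup.zpowers a⁆ = ⊥ := by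
        rw [eq_bot_iff, ← ha]
        exact Subgroup.commutator_mono (Subgroup.commutator_mono hAP le_rfl) le_rfl
      rw [h1, Subgroup.map_bot]
    exact Cfsg.Agent.PLocal.QdFree.conj_quadratic hq
  · intro h0
    exact hx ((hα1 a).1 h0)

end Cfsg.Agent.H317.KP
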