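import Cfsg.Agent.H742.CoreOf
import Cfsg.Agent.H742.HasOppOf
import Cfsg.Agent.H742.SigmaRoot

/-!
# The flag stabiliser of a root group is transitive on the opposite root groups
-/

set_option autoImplicit false

namespace Cfsg.Agent.H317.KP

open Cfsg Cfsg.Agent.H740 Cfsg.Agent.H742 Cfsg.Agent.H731

/-! ### ring computations -/

section ring

variable {k : Type*} [Field k] {M : Type*} [AddCommGroup M] [Module k M]

theorem same_e_y {s t₁ t₂ : M →ₗ[k] M} (he : s * t₁ + t₁ * s = s * t₂ + t₂ * s) :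
    s * (t₁ - t₂) = (t₂ - t₁) * s := by
  have : s * t₁ - s * t₂ = t₂ * s - t₁ * s := by
    rw [sub_eq_sub_iff_add_eq_add, he]; abel
  rw [mul_sub, this, sub_mul]

/-- product of two torus elements -/
theorem torus_mul {s t₁ t₂ : M →ₗ[k] M} (h₁ : Inv s t₁) (h₂ : Inv s t₂) (he : s * t₁ + t₁ * s = s * t₂ + t₂ * s)
    {c : k} (hc : c ≠ 0) :
    (1 - (s * t₂ + t₂ * s) + (c • (s * t₂) + c⁻¹ • (t₂ * s))) * (1 - (s * t₁ + t₁ * s) + (c⁻¹ • (s * t₁) + c • (t₁ * s)))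
      = 1 + (1 - c ^ 2) • (s * (t₁ - t₂)) := by
  have a21 : (s * t₂) * (s * t₁) = s * t₁ := by rw [← mul_assoc, h₂.sts]
  have b21 : (t₂ * s) * (t₁ * s) = t₂ * s := by rw [mul_assoc, ← mul_assoc s, h₁.sts]
  have ba : (t₂ * s) * (s * t₁) = 0 := by rw [mul_assoc, ← mul_assoc s, h₁.ss, zero_mul, mul_zero]
  have a22 : (s * t₂) * (s * t₂) = s * t₂ := by rw [← mul_assoc, h₂.sts]
  have b22 : (t₂ * s) * (s * t₂) = 0 := by rw [mul_assoc, ← mul_assoc s, h₂.ss, zero_mul, mul_zero]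
  have ab2 : (s * t₂) * (t₂ * s) = 0 := by rw [mul_assoc, ← mul_assoc t₂, h₂.tt, zero_mul, mul_zero]
  have bb2 : (t₂ * s) * (t₂ * s) = t₂ * s := by rw [← mul_assoc, h₂.tst]
  have ab : (s * t₂) * (t₁ * s) = s * t₂ - s * t₁ := by
    have : t₁ * s = (s * t₂ + t₂ * s) - s * t₁ := by rw [← he]; abel
    rw [this, mul_sub, mul_add, a22, ab2, a21, add_zero]
  have cc : c * c⁻¹ = 1 := mul_inv_cancel₀ hc
  have cc' : c⁻¹ * c = 1 := inv_mul_cancel₀ hc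
  have e : 1 - (s * t₁ + t₁ * s) + (c⁻¹ • (s * t₁) + c • (t₁ * s))
      = 1 - (s * t₂ + t₂ * s) + (c⁻¹ • (s * t₁) + c • (t₁ * s)) := by rw [he]
  rw [e]
  have z1 : (s * t₂ + t₂ * s) * (s * t₁) = s * t₁ := by rw [add_mul, a21, ba, add_zero]
  have z2 : (s * t₂ + t₂ * s) * (t₁ * s) = t₁ * s := by
    rw [← he, add_mul]
    have : (s * t₁) * (t₁ * s) = 0 := by rw [mul_assoc, ← mul_assoc t₁, h₁.tt, zero_mul, mul_zero]
    rw [this, zero_add, ← mul_assoc, h₁.tst]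
  have z3 : (s * t₂) * (s * t₂ + t₂ * s) = s * t₂ := by rw [mul_add, a22, ab2, add_zero]
  have z4 : (t₂ * s) * (s * t₂ + t₂ * s) = t₂ * s := by rw [mul_add, b22, bb2, zero_add]
  have z5 : (s * t₂ + t₂ * s) * (s * t₂ + t₂ * s) = s * t₂ + t₂ * s := h₂.idem
  generalize hE : s * t₂ + t₂ * s = E at *
  generalize hA2 : s * t₂ = A2 at *
  generalize hB2 : t₂ * s = B2 at *
  generalize hA1 : s * t₁ = A1 at *
  generalize hB1 : t₁ * s = B1 at *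
  have expand : (1 - E + (c • A2 + c⁻¹ • B2)) * (1 - E + (c⁻¹ • A1 + c • B1))
      = 1 - E - E + E * E + (c⁻¹ • A1 + c • B1) - (c⁻¹ • (E * A1) + c • (E * B1))
        + (c • A2 + c⁻¹ • B2) - (c • (A2 * E) + c⁻¹ • (B2 * E))
        + ((c * c⁻¹) • (A2 * A1) + (c * c) • (A2 * B1) + (c⁻¹ * c⁻¹) • (B2 * A1) + (c⁻¹ * c) • (B2 * B1)) := by
    simp only [mul_add, add_mul, mul_sub, sub_mul, one_mul, mul_one, smul_mul_assoc, mul_smul_comm, smul_smul]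
    module
  rw [expand, z5, z1, z2, z3, z4, a21, ab, ba, b21, cc, cc', mul_sub, hA1, hA2, one_smul, one_smul, smul_zero, pow_two]
  have hEE : E = A2 + B2 := hE.symm
  rw [hEE]
  module

/-- `t₂` is the conjugate of `t₁` by `1 + y`, `y = s (t₁ - t₂)`. -/
theorem conj_y {s t₁ t₂ : M →ₗ[k] M} (h₁ : Inv s t₁) (h₂ : Inv s t₂) (he : s * t₁ + t₁ * s = s * t₂ + t₂ * s) :
    (1 + s * (t₁ - t₂)) * t₁ * (1 - s * (t₁ - t₂)) = t₂ := by
  have e1 : s * (t₁ - t₂) * t₁ = t₂ * s * t₁ - t₁ := by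
    rw [same_e_y he, sub_mul, sub_mul, h₁.tst]
  have e2 : t₁ * (s * (t₁ - t₂)) = t₁ - t₁ * s * t₂ := by
    rw [← mul_assoc, mul_sub, h₁.tst]
  have e3 : t₂ * s * t₁ * (s * (t₁ - t₂)) = t₂ * s * t₁ - t₂ := by
    calc t₂ * s * t₁ * (s * (t₁ - t₂)) = t₂ * (s * t₁ * s) * (t₁ - t₂) := by simp only [mul_assoc]
      _ = t₂ * s * t₁ - t₂ * s * t₂ := by rw [h₁.sts, mul_sub]
      _ = _ := by rw [h₂.tst]
  calc (1 + s * (t₁ - t₂)) * t₁ * (1 - s * (t₁ - t₂))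
      = t₁ + s * (t₁ - t₂) * t₁ - t₁ * (s * (t₁ - t₂)) - s * (t₁ - t₂) * t₁ * (s * (t₁ - t₂)) := by noncomm_ring
    _ = t₁ + (t₂ * s * t₁ - t₁) - (t₁ - t₁ * s * t₂) - (t₂ * s * t₁ - t₁) * (s * (t₁ - t₂)) := by rw [e1, e2]
    _ = t₁ + (t₂ * s * t₁ - t₁) - (t₁ - t₁ * s * t₂) - ((t₂ * s * t₁ - t₂) - (t₁ - t₁ * s * t₂)) := by
        rw [sub_mul, e3, e2]
    _ = t₂ := by abel

theorem y_sq {s t₁ t₂ : M →ₗ[k] M} (h₁ : Inv s t₁) (he : s * t₁ + t₁ * s = s * t₂ + t₂ * s) :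
    (s * (t₁ - t₂)) * (s * (t₁ - t₂)) = 0 := by
  calc (s * (t₁ - t₂)) * (s * (t₁ - t₂)) = (s * (t₁ - t₂)) * ((t₂ - t₁) * s) := by rw [same_e_y he]
    _ = s * (t₁ - t₂) * (t₂ - t₁) * s := by simp only [mul_assoc]
    _ = (t₂ - t₁) * s * (t₂ - t₁) * s := by rw [same_e_y he]
    _ = - ((t₂ - t₁) * (s * (t₁ - t₂)) * s) := by noncomm_ring
    _ = - ((t₂ - t₁) * (t₂ - t₁) * (s * s)) := by rw [same_e_y he]; simp only [mul_assoc]
    _ = 0 := by rw [h₁.ss, mul_zero, neg_zero]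

end ring

end Cfsg.Agent.H317.KP
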