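import Cfsg.Agent.H317.KP.Trans

/-!
# The flag stabiliser of a root group is transitive on the opposite root groups, second part
-/

set_option autoImplicit false

namespace Cfsg.Agent.H317.KP

open Cfsg Cfsg.Agent.H740 Cfsg.Agent.H742 Cfsg.Agent.H731

/-! ### conjugating involutions -/

theorem conj_of_inv {Γ : Type*} [Group Γ] {I I' : Γ} (h : I * I = 1) (h' : I' * I' = 1) {q : ℕ}
    (hv : (I * I') ^ (2 * q + 1) = 1) : ((I * I') ^ (q + 1))⁻¹ * I * (I * I') ^ (q + 1) = I' := by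
  have hI : I⁻¹ = I := inv_eq_of_mul_eq_one_right h
  have hI' : I'⁻¹ = I' := inv_eq_of_mul_eq_one_right h'
  have h1 : I * (I * I') * I⁻¹ = (I * I')⁻¹ := by
    rw [mul_inv_rev, hI, hI', ← mul_assoc, h, one_mul]
  have h2 : ∀ n : ℕ, I * (I * I') ^ n * I⁻¹ = ((I * I') ^ n)⁻¹ := by
    intro n
    rw [← conj_pow, h1, inv_pow]
  have h3 : (I * I') ^ (q + 1) * (I * I') ^ (q + 1) = I * I' := by
    rw [← pow_add]
    have : q + 1 + (q + 1) = 2 * q + 1 + 1 := by ring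
    rw [this, pow_succ, hv, one_mul]
  have h4 := h2 (q + 1)
  generalize (I * I') ^ (q + 1) = u at *
  calc u⁻¹ * I * u = u⁻¹ * (I * u * I⁻¹) * I := by group
    _ = u⁻¹ * u⁻¹ * I := by rw [h4]
    _ = (u * u)⁻¹ * I := by rw [mul_inv_rev]
    _ = I' := by rw [h3, mul_inv_rev, hI', inv_mul_cancel_right]

variable {p : ℕ} [Fact p.Prime] {M : Type*} [AddCommGroup M] [Module (ZMod p) M]

theorem natCast_end : ((p : ℕ) : Module.End (ZMod p) M) = 0 := by
  have : ((p : ℕ) : Module.End (ZMod p) M) = algebraMap (ZMod p) (Module.End (ZMod p) M) ((p : ℕ) : ZMod p) := by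
    rw [map_natCast]
  rw [this, ZMod.natCast_self, map_zero]

theorem pow_p_of_cube (hp3 : 3 ≤ p) {u : LinearMap.GeneralLinearGroup (ZMod p) M}
    (h : ((u : M →ₗ[ZMod p] M) - 1) ^ 3 = 0) : u ^ p = 1 := by
  apply Units.ext
  rw [Units.val_pow_eq_pow_val, Units.val_one]
  obtain ⟨r, hr⟩ := (Commute.one_right ((u : M →ₗ[ZMod p] M) - 1)).exists_add_pow_prime_eq (Fact.out : p.Prime)
  rw [sub_add_cancel, one_pow] at hr
  rw [hr]
  have h1 : ((u : M →ₗ[ZMod p] M) - 1) ^ p = 0 := by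
    obtain ⟨d, rfl⟩ := Nat.exists_eq_add_of_le hp3
    rw [pow_add, h, zero_mul]
  have h2 : ((p : ℕ) : M →ₗ[ZMod p] M) = 0 := natCast_end
  rw [h1, h2]
  simp

theorem cube_of_flagStab {V₁ V₂ : Submodule (ZMod p) M} {h : V₂ ≤ V₁} {u : LinearMap.GeneralLinearGroup (ZMod p) M}
    (hu : u ∈ flagStab h) : ((u : M →ₗ[ZMod p] M) - 1) ^ 3 = 0 := by
  obtain ⟨h1, h2, h3⟩ := mem_flagStab.1 hu
  have e : ((u : M →ₗ[ZMod p] M) - 1) ^ 3 = ((u : M →ₗ[ZMod p] M) - 1) * (((u : M →ₗ[ZMod p] M) - 1) * ((u : M →ₗ[ZMod p] M) - 1)) := by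
    noncomm_ring
  rw [e]
  ext m
  rw [Module.End.mul_apply, Module.End.mul_apply, LinearMap.zero_apply]
  have f1 : ((u : M →ₗ[ZMod p] M) - 1) m ∈ V₁ := h1 m
  have f2 : ((u : M →ₗ[ZMod p] M) - 1) (((u : M →ₗ[ZMod p] M) - 1) m) ∈ V₂ := h2 _ f1
  rw [LinearMap.sub_apply, Module.End.one_apply, h3 _ f2, sub_self]

theorem flagStab_pow (hp3 : 3 ≤ p) {V₁ V₂ : Submodule (ZMod p) M} {h : V₂ ≤ V₁}
    {u : LinearMap.GeneralLinearGroup (ZMod p) M} (hu : u ∈ flagStab h) : u ^ p = 1 :=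
  pow_p_of_cube hp3 (cube_of_flagStab hu)

/-- the flag stabiliser of a square zero map -/
def flg (s : M →ₗ[ZMod p] M) (hs : s * s = 0) : Subgroup (LinearMap.GeneralLinearGroup (ZMod p) M) :=
  flagStab (range_le_ker_of_mul hs)

theorem flg_mul {s : M →ₗ[ZMod p] M} {hs : s * s = 0} {u : LinearMap.GeneralLinearGroup (ZMod p) M}
    (hu : u ∈ flg s hs) : (u : M →ₗ[ZMod p] M) * s = s ∧ s * (u : M →ₗ[ZMod p] M) = s := by
  obtain ⟨h1, h2, h3⟩ := mem_flagStab.1 hu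
  constructor
  · ext m
    rw [Module.End.mul_apply]
    exact h3 _ ⟨m, rfl⟩
  · ext m
    have := h1 m
    rw [LinearMap.mem_ker, map_sub, sub_eq_zero] at this
    rw [Module.End.mul_apply]
    exact this

theorem conjL_flg {s : M →ₗ[ZMod p] M} {hs : s * s = 0} {u : LinearMap.GeneralLinearGroup (ZMod p) M}
    (hu : u ∈ flg s hs) : conjL u s = s := by
  rw [conjL_apply, (flg_mul hu).1, (flg_mul ((flg s hs).inv_mem hu)).2]

theorem mem_flg_of {s : M →ₗ[ZMod p] M} {hs : s * s = 0} {u : LinearMap.GeneralLinearGroup (ZMod p) M}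
    (h1 : s * ((u : M →ₗ[ZMod p] M) - 1) = 0) (h2 : ∃ z : M → M, ∀ m ∈ LinearMap.ker s, ((u : M →ₗ[ZMod p] M) - 1) m = s (z m))
    (h3 : ((u : M →ₗ[ZMod p] M) - 1) * s = 0) : u ∈ flg s hs := by
  refine mem_flagStab.2 ⟨fun m => ?_, fun m hm => ?_, ?_⟩
  · rw [LinearMap.mem_ker]
    exact congrArg (fun f : M →ₗ[ZMod p] M => f m) h1
  · obtain ⟨z, hz⟩ := h2
    exact ⟨z m, (hz m hm).symm⟩
  · rintro _ ⟨m, rfl⟩
    have := congrArg (fun f : M →ₗ[ZMod p] M => f m) h3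
    simp only [Module.End.mul_apply, LinearMap.sub_apply, Module.End.one_apply, LinearMap.zero_apply] at this
    exact sub_eq_zero.1 this

variable {G : Subgroup (LinearMap.GeneralLinearGroup (ZMod p) M)}

theorem w_mem {s t : M →ₗ[ZMod p] M} (h : H742.Inv s t) (hs : QIn G s) (ht : QIn G t) : h.w ∈ G :=
  G.mul_mem (G.mul_mem hs.mem_one (G.inv_mem ht.mem_one)) hs.mem_one

theorem slHom_mem {s t : M →ₗ[ZMod p] M} (h : H742.Inv s t) (hs0 : s ≠ 0) (hs : QIn G s) (ht : QIn G t)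
    (g : Matrix.SpecialLinearGroup (Fin 2) (ZMod p)) : h.slHom g ∈ G := by
  have hU : (upperUnipotentSL2 (ZMod p)).map h.slHom ≤ G := by
    rintro _ ⟨u, hu, rfl⟩
    obtain ⟨c, rfl⟩ := mem_upper_iff.1 hu
    exact hs.mem_of_coe (h.slHom_up c)
  have hL : (lowerUnipotentSL2 (ZMod p)).map h.slHom ≤ G := by
    rintro _ ⟨u, hu, rfl⟩
    obtain ⟨c, rfl⟩ := mem_lower_iff.1 hu
    exact ht.mem_of_coe (h.slHom_lo c)
  have h3 : h.slHom.range ≤ G := by
    rw [MonoidHom.range_eq_map, ← lower_sup_upper, Subgroup.map_sup]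
    exact sup_le hL hU
  exact h3 ⟨g, rfl⟩

/-! ### step one: the same idempotent -/

theorem conjL_mul' (g : LinearMap.GeneralLinearGroup (ZMod p) M) (x y : M →ₗ[ZMod p] M) :
    conjL g (x * y) = conjL g x * conjL g y := by
  simp only [conjL_apply]
  calc (g : M →ₗ[ZMod p] M) * (x * y) * ((g⁻¹ : LinearMap.GeneralLinearGroup (ZMod p) M) : M →ₗ[ZMod p] M)
      = (g : M →ₗ[ZMod p] M) * x * (((g⁻¹ : LinearMap.GeneralLinearGroup (ZMod p) M) : M →ₗ[ZMod p] M) * (g : M →ₗ[ZMod p] M)) * y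
        * ((g⁻¹ : LinearMap.GeneralLinearGroup (ZMod p) M) : M →ₗ[ZMod p] M) := by
        rw [Units.inv_mul, mul_one]; simp only [mul_assoc]
    _ = _ := by simp only [mul_assoc]

theorem conjL_one' (g : LinearMap.GeneralLinearGroup (ZMod p) M) : conjL g (1 : M →ₗ[ZMod p] M) = 1 := by
  rw [conjL_apply, mul_one, Units.mul_inv]

theorem conjL_conjL (g h : LinearMap.GeneralLinearGroup (ZMod p) M) (x : M →ₗ[ZMod p] M) :
    conjL g (conjL h x) = conjL (g * h) x := by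
  simp only [conjL_apply, mul_inv_rev, Units.val_mul, mul_assoc]

theorem conjL_id (x : M →ₗ[ZMod p] M) : conjL 1 x = x := by
  rw [conjL_apply, inv_one, Units.val_one, one_mul, mul_one]

theorem conjL_coe (g x : LinearMap.GeneralLinearGroup (ZMod p) M) :
    conjL g (x : M →ₗ[ZMod p] M) = ((g * x * g⁻¹ : LinearMap.GeneralLinearGroup (ZMod p) M) : M →ₗ[ZMod p] M) := by
  rw [conjL_apply, Units.val_mul, Units.val_mul]

theorem inv_conjL {s t : M →ₗ[ZMod p] M} (h : H742.Inv s t) (g : LinearMap.GeneralLinearGroup (ZMod p) M) :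
    H742.Inv (conjL g s) (conjL g t) :=
  ⟨by rw [← conjL_mul', h.ss, map_zero], by rw [← conjL_mul', h.tt, map_zero],
    by rw [← conjL_mul', ← conjL_mul', h.sts], by rw [← conjL_mul', ← conjL_mul', h.tst]⟩

theorem two_smul_inj (hp2 : p ≠ 2) {x y : M →ₗ[ZMod p] M} (h : x + x = y + y) : x = y := by
  have h2 : (2 : ZMod p) ≠ 0 := by
    intro h2
    have : ((2 : ℕ) : ZMod p) = 0 := by exact_mod_cast h2
    rw [ZMod.natCast_eq_zero_iff] at this
    exact hp2 ((Nat.prime_dvd_prime_iff_eq (Fact.out : p.Prime) Nat.prime_two).1 this)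
  have h3 : (2 : ZMod p) • (x - y) = 0 := by
    rw [two_smul]
    have : x - y + (x - y) = (x + x) - (y + y) := by abel
    rw [this, h, sub_self]
  rcases smul_eq_zero.1 h3 with h4 | h4
  · exact absurd h4 h2
  · exact sub_eq_zero.1 h4

theorem step_one (hp3 : 3 ≤ p) {s t t' : M →ₗ[ZMod p] M} (h : H742.Inv s t) (h' : H742.Inv s t') (hs : QIn G s)
    (ht : QIn G t) (ht' : QIn G t') : ∃ g ∈ G ⊓ flg s h.ss,
      conjL g (s * t + t * s) = s * t' + t' * s := by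
  obtain ⟨q, hq⟩ : ∃ q : ℕ, p = 2 * q + 1 := (Fact.out : p.Prime).odd_of_ne_two (by omega)
  set I := h.w * h.w with hI
  set I' := h'.w * h'.w with hI'
  have cI : (I : M →ₗ[ZMod p] M) = 1 - (s * t + t * s) - (s * t + t * s) := h.coe_w_sq
  have cI' : (I' : M →ₗ[ZMod p] M) = 1 - (s * t' + t' * s) - (s * t' + t' * s) := h'.coe_w_sq
  have sq : ∀ {e : M →ₗ[ZMod p] M}, e * e = e → (1 - e - e) * (1 - e - e) = 1 := by
    intro e he
    have : (1 - e - e) * (1 - e - e) = 1 - e - e - e - e + (e * e + e * e + e * e + e * e) := by noncomm_ring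
    rw [this, he]; abel
  have hII : I * I = 1 := by
    apply Units.ext
    rw [Units.val_mul, cI, sq h.idem, Units.val_one]
  have hII' : I' * I' = 1 := by
    apply Units.ext
    rw [Units.val_mul, cI', sq h'.idem, Units.val_one]
  have hIG : I ∈ G := G.mul_mem (w_mem h hs ht) (w_mem h hs ht)
  have hIG' : I' ∈ G := G.mul_mem (w_mem h' hs ht') (w_mem h' hs ht')
  have se : ∀ {t : M →ₗ[ZMod p] M}, H742.Inv s t → s * (s * t + t * s) = s := by
    intro t h
    rw [mul_add, ← mul_assoc, h.ss, zero_mul, zero_add, ← mul_assoc, h.sts]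
  have es : ∀ {t : M →ₗ[ZMod p] M}, H742.Inv s t → (s * t + t * s) * s = s := by
    intro t h
    rw [add_mul, mul_assoc t, h.ss, mul_zero, add_zero, h.sts]
  have sI : ∀ {t : M →ₗ[ZMod p] M}, H742.Inv s t → s * (1 - (s * t + t * s) - (s * t + t * s)) = -s := by
    intro t h
    rw [mul_sub, mul_sub, mul_one, se h]; abel
  have Is : ∀ {t : M →ₗ[ZMod p] M}, H742.Inv s t → (1 - (s * t + t * s) - (s * t + t * s)) * s = -s := by
    intro t h
    rw [sub_mul, sub_mul, one_mul, es h]; abel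
  have hv : I * I' ∈ flg s h.ss := by
    apply mem_flg_of
    · rw [Units.val_mul, cI, cI', mul_sub, mul_one, ← mul_assoc, sI h, neg_mul, sI h', neg_neg, sub_self]
    · refine ⟨fun m => t' m - t m + (t' m - t m), fun m hm => ?_⟩
      have hm' : s m = 0 := hm
      have e1 : (s * t' + t' * s) m = s (t' m) := by
        rw [LinearMap.add_apply, Module.End.mul_apply, Module.End.mul_apply, hm', map_zero, add_zero]
      have e2 : (s * t + t * s) m = s (t m) := by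
        rw [LinearMap.add_apply, Module.End.mul_apply, Module.End.mul_apply, hm', map_zero, add_zero]
      have e3 : ∀ x, (s * t + t * s) (s x) = s x := fun x => congrArg (fun f : M →ₗ[ZMod p] M => f x) (es h)
      rw [Units.val_mul, cI, cI', LinearMap.sub_apply, Module.End.mul_apply, Module.End.one_apply]
      simp only [LinearMap.sub_apply, Module.End.one_apply, e1, map_sub, e2, e3, map_add]
      abel
    · rw [Units.val_mul, cI, cI', sub_mul, one_mul, mul_assoc, Is h', mul_neg, Is h, neg_neg, sub_self]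
  have hvp : (I * I') ^ (2 * q + 1) = 1 := by rw [← hq]; exact flagStab_pow hp3 hv
  have hc := conj_of_inv hII hII' hvp
  refine ⟨((I * I') ^ (q + 1))⁻¹, ⟨G.inv_mem (G.pow_mem (G.mul_mem hIG hIG') _),
    (flg s h.ss).inv_mem ((flg s h.ss).pow_mem hv _)⟩, ?_⟩
  have h3 : ((((I * I') ^ (q + 1))⁻¹ * I * (I * I') ^ (q + 1) : LinearMap.GeneralLinearGroup (ZMod p) M) :
      M →ₗ[ZMod p] M) = (I' : M →ₗ[ZMod p] M) := by rw [hc]
  have h4 := conjL_coe ((I * I') ^ (q + 1))⁻¹ I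
  rw [inv_inv] at h4
  rw [← h4, cI, cI', map_sub, map_sub, conjL_one', sub_sub, sub_sub] at h3
  exact two_smul_inj (by omega) (sub_right_inj.1 h3)

/-! ### step two and the conclusion -/

theorem qIn_y (hp5 : 5 ≤ p) {s t₁ t₂ : M →ₗ[ZMod p] M} (h₁ : H742.Inv s t₁) (h₂ : H742.Inv s t₂)
    (he : s * t₁ + t₁ * s = s * t₂ + t₂ * s) (hs0 : s ≠ 0) (hs : QIn G s) (ht₁ : QIn G t₁) (ht₂ : QIn G t₂) :
    QIn G (s * (t₁ - t₂)) := by
  refine ⟨y_sq h₁ he, fun c => ?_⟩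
  have hpp : p.Prime := Fact.out
  have hc2 : (2 : ZMod p) ≠ 0 := by
    intro h
    have : ((2 : ℕ) : ZMod p) = 0 := by exact_mod_cast h
    rw [ZMod.natCast_eq_zero_iff] at this
    have := Nat.le_of_dvd (by norm_num) this
    omega
  have hc3 : (1 - 2 ^ 2 : ZMod p) ≠ 0 := by
    intro h
    have : ((3 : ℕ) : ZMod p) = 0 := by
      push_cast
      linear_combination -h
    rw [ZMod.natCast_eq_zero_iff] at this
    have := Nat.le_of_dvd (by norm_num) this
    omega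
  have hd : ∀ (c : ZMod p) (hc : c ≠ 0), ∃ g : Matrix.SpecialLinearGroup (Fin 2) (ZMod p),
      (g : Matrix (Fin 2) (Fin 2) (ZMod p)) = !![c, 0; 0, c⁻¹] := fun c hc =>
    ⟨⟨!![c, 0; 0, c⁻¹], by rw [Matrix.det_fin_two_of, mul_inv_cancel₀ hc]; ring⟩, rfl⟩
  obtain ⟨g₂, hg₂⟩ := hd 2 hc2
  obtain ⟨g₁, hg₁⟩ := hd 2⁻¹ (inv_ne_zero hc2)
  have e₂ : (h₂.slHom g₂ : M →ₗ[ZMod p] M) = 1 - (s * t₂ + t₂ * s) + ((2 : ZMod p) • (s * t₂) + (2 : ZMod p)⁻¹ • (t₂ * s)) := by
    rw [h₂.coe_slHom, slMap, hg₂]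
    simp only [Matrix.of_apply, Matrix.cons_val', Matrix.cons_val_zero, Matrix.cons_val_one, Matrix.empty_val',
      Matrix.cons_val_fin_one, zero_smul, add_zero]
  have e₁ : (h₁.slHom g₁ : M →ₗ[ZMod p] M) = 1 - (s * t₁ + t₁ * s) + ((2 : ZMod p)⁻¹ • (s * t₁) + (2 : ZMod p) • (t₁ * s)) := by
    rw [h₁.coe_slHom, slMap, hg₁]
    simp only [Matrix.of_apply, Matrix.cons_val', Matrix.cons_val_zero, Matrix.cons_val_one, Matrix.empty_val',
      Matrix.cons_val_fin_one, zero_smul, add_zero, inv_inv]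
  have e₃ := torus_mul h₁ h₂ he hc2
  rw [← e₁, ← e₂, ← Units.val_mul] at e₃
  have hmem : h₂.slHom g₂ * h₁.slHom g₁ ∈ G := G.mul_mem (slHom_mem h₂ hs0 hs ht₂ _) (slHom_mem h₁ hs0 hs ht₁ _)
  generalize h₂.slHom g₂ * h₁.slHom g₁ = g at *
  have hpow : ∀ n : ℕ, ((g ^ n : LinearMap.GeneralLinearGroup (ZMod p) M) : M →ₗ[ZMod p] M)
      = 1 + ((n : ZMod p) * (1 - 2 ^ 2)) • (s * (t₁ - t₂)) := by
    intro n
    induction n with
    | zero => simp
    | succ n ih =>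
      rw [pow_succ, Units.val_mul, ih, e₃, mul_add, mul_one, add_mul, one_mul, smul_mul_smul_comm, y_sq h₁ he, smul_zero,
        add_zero, add_assoc, ← add_smul]
      congr 2
      push_cast
      ring
  refine ⟨g ^ (c / (1 - 2 ^ 2)).val, G.pow_mem hmem _, ?_⟩
  rw [hpow, ZMod.natCast_zmod_val, div_mul_cancel₀ _ hc3]

/-- **The flag stabiliser of `s` in `G` is transitive on the inverse partners of `s`.** -/
theorem flg_trans (hp5 : 5 ≤ p) {s t t' : M →ₗ[ZMod p] M} (h : H742.Inv s t) (h' : H742.Inv s t') (hs0 : s ≠ 0)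
    (hs : QIn G s) (ht : QIn G t) (ht' : QIn G t') : ∃ g ∈ G ⊓ flg s h.ss, conjL g t = t' := by
  obtain ⟨g, hg, he⟩ := step_one (by omega) h h' hs ht ht'
  have hgs : conjL g s = s := conjL_flg hg.2
  have h₁ : H742.Inv s (conjL g t) := by
    have := inv_conjL h g
    rwa [hgs] at this
  rw [map_add, conjL_mul', conjL_mul', hgs] at he
  have hq₁ : QIn G (conjL g t) := ht.conj hg.1
  have hy := qIn_y hp5 h₁ h' he hs0 hs hq₁ ht'
  refine ⟨oneAdd _ hy.1 * g, ⟨G.mul_mem hy.mem_one hg.1, (flg s h.ss).mul_mem ?_ hg.2⟩, ?_⟩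
  · apply mem_flg_of
    · rw [coe_oneAdd, add_sub_cancel_left, ← mul_assoc, h.ss, zero_mul]
    · refine ⟨fun m => (conjL g t - t') m, fun m hm => ?_⟩
      rw [coe_oneAdd, add_sub_cancel_left, Module.End.mul_apply]
    · rw [coe_oneAdd, add_sub_cancel_left, same_e_y he, mul_assoc, h.ss, mul_zero]
  · rw [← conjL_conjL, conjL_apply, coe_oneAdd, coe_oneAdd_inv]
    exact conj_y h₁ h' he

end Cfsg.Agent.H317.KP
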